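import Mathlib
import Cfsg.Agent.H19.Basic

/-!
Half-transitive automorphism groups (namespace `H05.Half`): `H` acts on a finite group `N` by
automorphisms and all non-identity elements have stabilizers of the same order `c`.
`fix_of_set`: a subset of `N#` of size dividing `|N|` that is invariant under the stabilizers of its
points is fixed pointwise by them; `inv_eq`: if the action is faithful and `c > 1` there is no proper
non-trivial invariant subgroup; `comm`: then `N` is abelian; `exists_exp`: and of prime exponent.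
-/

set_option autoImplicit false
open MulAction
open scoped Pointwise

namespace H05.Half

variable {H N : Type*} [Group H] [Finite H] [Group N] [Finite N] [MulDistribMulAction H N] {c : ℕ}

theorem orbit_mul (hc : ∀ y : N, y ≠ 1 → Nat.card (stabilizer H y) = c) {y : N} (hy : y ≠ 1) :
    Nat.card (orbit H y) * c = Nat.card H := by
  rw [← hc y hy, ← Nat.card_prod]
  exact Nat.card_congr (orbitProdStabilizerEquivGroup H y)

theorem fix_of_set (hc : ∀ y : N, y ≠ 1 → Nat.card (stabilizer H y) = c) (X : Set N)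
    (h1 : (1 : N) ∉ X) (hX : Nat.card X ∣ Nat.card N)
    (hinv : ∀ z ∈ X, ∀ h : H, h • z = z → ∀ x ∈ X, h • x ∈ X)
    {z x : N} (hz : z ∈ X) (hx : x ∈ X) {h : H} (hh : h • z = z) : h • x = x := by
  classical
  let S : Subgroup H := stabilizer H X
  have hS : ∀ w ∈ X, stabilizer H w ≤ S := by
    intro w hw g hg
    refine Set.eq_of_subset_of_ncard_le ?_ (by rw [Set.ncard_smul_set]) (Set.toFinite _)
    rintro _ ⟨y, hy, rfl⟩
    exact hinv w hw g hg y hy
  have hne : ∀ w ∈ X, w ≠ 1 := fun w hw e => h1 (e ▸ hw)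
  have hc0 : 0 < c := by rw [← hc z (hne z hz)]; exact Nat.card_pos
  have hst : ∀ w ∈ X, Nat.card (orbit S w) * c = Nat.card S := by
    intro w hw
    have e : Nat.card (stabilizer S w) = c := by
      rw [← hc w (hne w hw)]
      have : stabilizer S w = (stabilizer H w).subgroupOf S := by ext; rfl
      rw [this]
      exact Nat.card_congr (Subgroup.subgroupOfEquivOfLe (hS w hw)).toEquiv
    rw [← e, ← Nat.card_prod]
    exact Nat.card_congr (orbitProdStabilizerEquivGroup S w)
  set t := Nat.card (orbit S x) with ht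
  have ht1 : t ∣ Nat.card X := by
    refine H19.dvd_card_of_orbits (H := S) X ?_ t ?_
    · intro s y hy
      have := s.2
      rw [mem_stabilizer_iff] at this
      rw [← this]
      exact Set.smul_mem_smul_set hy
    · intro y hy
      have := (hst y hy).trans (hst x hx).symm
      exact (Nat.eq_of_mul_eq_mul_right hc0 this) ▸ dvd_rfl
  set k := Nat.card (orbit H x) with hk
  have hk1 : k ∣ Nat.card ({1}ᶜ : Set N) := by
    refine H19.dvd_card_of_orbits (H := H) _ ?_ k ?_
    · intro g y hy e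
      apply hy
      have : g • y = 1 := e
      have := congrArg (fun w => g⁻¹ • w) this
      simpa using this
    · intro y hy
      have := (orbit_mul hc (y := y) hy).trans (orbit_mul hc (hne x hx)).symm
      exact (Nat.eq_of_mul_eq_mul_right hc0 this) ▸ dvd_rfl
  have htk : t ∣ k := by
    have := S.card_subgroup_dvd_card
    rw [← hst x hx, ← orbit_mul hc (hne x hx)] at this
    exact Nat.dvd_of_mul_dvd_mul_right hc0 this
  have hcompl : Nat.card ({1}ᶜ : Set N) + 1 = Nat.card N := by
    have := Set.ncard_add_ncard_compl ({1} : Set N)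
    rw [Set.ncard_singleton] at this
    rw [Nat.card_coe_set_eq]; omega
  have ht2 : t ∣ 1 := by
    have a := ht1.trans hX
    rw [← hcompl] at a
    exact (Nat.dvd_add_right (htk.trans hk1)).1 a
  have ht3 : Subsingleton (orbit S x) := (Nat.card_eq_one_iff_unique.1 (Nat.dvd_one.1 ht2)).1
  have := Subsingleton.elim (⟨(⟨h, hS z hz hh⟩ : S) • x, mem_orbit _ _⟩ : orbit S x)
    ⟨x, mem_orbit_self x⟩
  exact congrArg Subtype.val this

theorem stab_eq (hc : ∀ y : N, y ≠ 1 → Nat.card (stabilizer H y) = c) {y z : N} (hy : y ≠ 1)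
    (hz : z ≠ 1) (h : stabilizer H y ≤ stabilizer H z) : stabilizer H y = stabilizer H z :=
  Subgroup.eq_of_le_of_card_ge h (by rw [hc y hy, hc z hz])

omit [Finite H] [Finite N] in
theorem all_of_compl {B : Subgroup N} (hB : B ≠ ⊤) (D : Subgroup N) (h : ∀ y, y ∉ B → y ∈ D) :
    D = ⊤ := by
  obtain ⟨y, hy⟩ : ∃ y, y ∉ B := by
    by_contra hh
    push Not at hh
    exact hB ((Subgroup.eq_top_iff' B).2 hh)
  rw [Subgroup.eq_top_iff']
  intro x
  by_cases hx : x ∈ B
  · have h1 : y * x ∉ B := fun e => hy (by simpa using B.mul_mem e (B.inv_mem hx))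
    simpa using D.mul_mem (D.inv_mem (h y hy)) (h _ h1)
  · exact h x hx

/-- the elements fixed by a subgroup `K` -/
def fx (K : Subgroup H) (N : Type*) [Group N] [MulDistribMulAction H N] : Subgroup N where
  carrier := {x | ∀ h ∈ K, h • x = x}
  one_mem' := fun h _ => smul_one h
  mul_mem' := fun {a b} ha hb h hh => by rw [smul_mul', ha h hh, hb h hh]
  inv_mem' := fun {a} ha h hh => by rw [smul_inv', ha h hh]

theorem fx_ne_top [FaithfulSMul H N] (hc : ∀ y : N, y ≠ 1 → Nat.card (stabilizer H y) = c)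
    (h1 : 1 < c) {y : N} (hy : y ≠ 1) : fx (stabilizer H y) N ≠ ⊤ := by
  intro e
  have : stabilizer H y = ⊥ := by
    rw [eq_bot_iff]
    intro h hh
    rw [Subgroup.mem_bot]
    refine eq_of_smul_eq_smul (α := N) fun x => ?_
    rw [one_smul]
    exact (e ▸ Subgroup.mem_top x : x ∈ fx (stabilizer H y) N) h hh
  have h2 := hc y hy
  rw [this, Subgroup.card_bot] at h2
  omega

theorem inv_eq [FaithfulSMul H N] (hc : ∀ y : N, y ≠ 1 → Nat.card (stabilizer H y) = c)
    (h1 : 1 < c) (B : Subgroup N) (hB : ∀ h : H, ∀ x ∈ B, h • x ∈ B) : B = ⊥ ∨ B = ⊤ := by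
  by_contra hh
  push Not at hh
  obtain ⟨b, hb, hb1⟩ : ∃ b ∈ B, b ≠ 1 := by
    by_contra h
    push Not at h
    exact hh.1 ((Subgroup.eq_bot_iff_forall B).2 h)
  refine fx_ne_top hc h1 hb1 (all_of_compl hh.2 _ fun y hy => ?_)
  have hy1 : y ≠ 1 := fun e => hy (e ▸ B.one_mem)
  have key : stabilizer H y ≤ stabilizer H b := by
    intro h hh'
    have := fix_of_set hc (y • (B : Set N)) ?_ ?_ ?_ (z := y) (x := y * b)
      ⟨1, B.one_mem, by simp⟩ ⟨b, hb, rfl⟩ hh'
    · rw [smul_mul', show h • y = y from hh'] at this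
      exact mul_left_cancel this
    · rintro ⟨x, hx, e⟩
      apply hy
      have : y = x⁻¹ := eq_inv_of_mul_eq_one_left e
      rw [this]; exact B.inv_mem hx
    · rw [Nat.card_coe_set_eq, Set.ncard_smul_set, ← Nat.card_coe_set_eq]
      exact B.card_subgroup_dvd_card
    · rintro _ ⟨u, hu, rfl⟩ g hg _ ⟨v, hv, rfl⟩
      refine ⟨u * g • (u⁻¹ * v), B.mul_mem hu (hB g _ (B.mul_mem (B.inv_mem hu) hv)), ?_⟩
      simp only [smul_eq_mul] at hg ⊢
      rw [← mul_assoc, ← hg, ← smul_mul']
      congr 1; group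
  intro h hh'
  rw [← stab_eq hc hy1 hb1 key] at hh'
  exact hh'

theorem fix_conj (hc : ∀ y : N, y ≠ 1 → Nat.card (stabilizer H y) = c) {y : N} (hy : y ≠ 1)
    {h : H} (hh : h • y = y) (n : N) : h • (n * y * n⁻¹) = n * y * n⁻¹ := by
  refine fix_of_set hc (orbit (ConjAct N) y) ?_ ?_ ?_ (z := y) (mem_orbit_self y)
    ⟨ConjAct.toConjAct n, rfl⟩ hh
  · rintro ⟨g, hg⟩
    apply hy
    have := congrArg (fun w => g⁻¹ • w) hg
    simpa using this
  · have : Nat.card (orbit (ConjAct N) y) * Nat.card (stabilizer (ConjAct N) y) = Nat.card N := by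
      rw [← Nat.card_prod]
      exact Nat.card_congr (orbitProdStabilizerEquivGroup (ConjAct N) y)
    exact Dvd.intro _ this
  · rintro _ ⟨u, rfl⟩ g hg _ ⟨v, rfl⟩
    refine ⟨ConjAct.toConjAct (g • (v.ofConjAct * (u.ofConjAct)⁻¹) * u.ofConjAct), ?_⟩
    simp only [ConjAct.smul_def, ConjAct.ofConjAct_toConjAct] at hg ⊢
    have : ConjAct.ofConjAct v * y * (ConjAct.ofConjAct v)⁻¹ =
        (v.ofConjAct * (u.ofConjAct)⁻¹) * (ConjAct.ofConjAct u * y * (ConjAct.ofConjAct u)⁻¹) *
          (v.ofConjAct * (u.ofConjAct)⁻¹)⁻¹ := by group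
    rw [this, smul_mul' g (_ * (_ * y * _)), smul_mul' g _ (_ * y * _), hg, smul_inv']
    group

theorem fx_normal (hc : ∀ y : N, y ≠ 1 → Nat.card (stabilizer H y) = c) (y : N) :
    (fx (stabilizer H y) N).Normal := by
  refine ⟨fun z hz n h hh => ?_⟩
  by_cases hz1 : z = 1
  · simp [hz1]
  · exact fix_conj hc hz1 (hz h hh) n

theorem comm [FaithfulSMul H N] (hc : ∀ y : N, y ≠ 1 → Nat.card (stabilizer H y) = c)
    (h1 : 1 < c) (y x : N) : y * x = x * y := by
  by_cases hy : y = 1
  · simp [hy]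
  have := all_of_compl (fx_ne_top hc h1 hy) (Subgroup.centralizer {y}) fun w hw => ?_
  · have hx : x ∈ Subgroup.centralizer {y} := this ▸ Subgroup.mem_top x
    exact hx y rfl
  · have hw1 : w ≠ 1 := fun e => hw (e ▸ Subgroup.one_mem _)
    have hd : Disjoint (fx (stabilizer H y) N) (fx (stabilizer H w) N) := by
      rw [Subgroup.disjoint_def]
      intro z hz1 hz2
      by_contra hz
      apply hw
      rw [stab_eq hc hy hz hz1, ← stab_eq hc hw1 hz hz2]
      exact fun h hh => hh
    have := Subgroup.commute_of_normal_of_disjoint _ _ (fx_normal hc y) (fx_normal hc w) hd y w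
      (fun h hh => hh) (fun h hh => hh)
    rintro _ rfl
    exact this.eq

theorem exists_exp [FaithfulSMul H N] [Nontrivial N]
    (hc : ∀ y : N, y ≠ 1 → Nat.card (stabilizer H y) = c) (h1 : 1 < c) :
    ∃ p : ℕ, p.Prime ∧ ∀ x : N, x ^ p = 1 := by
  obtain ⟨p, hp, hpd⟩ := Nat.exists_prime_and_dvd (Finite.one_lt_card (α := N)).ne'
  have : Fact p.Prime := ⟨hp⟩
  obtain ⟨y, hy⟩ := exists_prime_orderOf_dvd_card' p hpd
  let B : Subgroup N :=
    { carrier := {x | x ^ p = 1}
      one_mem' := one_pow p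
      mul_mem' := fun {a b} ha hb => by
        have ha : a ^ p = 1 := ha
        have hb : b ^ p = 1 := hb
        show (a * b) ^ p = 1
        rw [Commute.mul_pow (comm hc h1 a b), ha, hb, one_mul]
      inv_mem' := fun {a} ha => by
        have ha : a ^ p = 1 := ha
        show a⁻¹ ^ p = 1
        rw [inv_pow, ha, inv_one] }
  refine ⟨p, hp, ?_⟩
  rcases inv_eq hc h1 B (fun h x hx => by
    have hx : x ^ p = 1 := hx
    show (h • x) ^ p = 1
    rw [← smul_pow', hx, smul_one]) with h | h
  · exfalso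
    have : y ∈ B := by show y ^ p = 1; rw [← hy, pow_orderOf_eq_one]
    rw [h, Subgroup.mem_bot] at this
    rw [this, orderOf_one] at hy
    exact hp.one_lt.ne hy
  · intro x
    exact (h ▸ Subgroup.mem_top x : x ∈ B)

end H05.Half
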