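import Mathlib
import Cfsg.Agent.H05.Half

/-!
Half-transitive linear groups (namespace `H05.Half`): `lin_irr`: a faithful linear group on a finite
module in which all non-zero vectors have stabilizers of the same order `c > 1` is irreducible (even on
additive subgroups); `fixS ρ g` the fixed space of `ρ g`.
-/

set_option autoImplicit false
open MulAction

namespace H05.Half

variable {R V G : Type*} [Ring R] [AddCommGroup V] [Module R V] [Group G]

/-- the action on `Multiplicative V` -/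
@[reducible] def linAct (ρ : G →* (V ≃ₗ[R] V)) : MulDistribMulAction G (Multiplicative V) where
  smul g v := Multiplicative.ofAdd (ρ g v.toAdd)
  one_smul v := by
    show Multiplicative.ofAdd (ρ 1 v.toAdd) = v
    simp
  mul_smul a b v := by
    show Multiplicative.ofAdd (ρ (a * b) v.toAdd) = Multiplicative.ofAdd (ρ a (ρ b v.toAdd))
    simp
  smul_one g := by
    show Multiplicative.ofAdd (ρ g 0) = 1
    simp
  smul_mul g a b := by
    show Multiplicative.ofAdd (ρ g (a.toAdd + b.toAdd)) =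
      Multiplicative.ofAdd (ρ g a.toAdd) * Multiplicative.ofAdd (ρ g b.toAdd)
    simp

theorem lin_irr [Finite G] [Finite V] (ρ : G →* (V ≃ₗ[R] V)) (hρ : Function.Injective ρ) {c : ℕ}
    (h1 : 1 < c) (hc : ∀ v : V, v ≠ 0 → Nat.card {g : G // ρ g v = v} = c) (W : AddSubgroup V)
    (hW : ∀ g, ∀ w ∈ W, ρ g w ∈ W) : W = ⊥ ∨ W = ⊤ := by
  letI := linAct ρ
  have : FaithfulSMul G (Multiplicative V) :=
    ⟨fun {a b} h => hρ (LinearEquiv.ext fun v => h (Multiplicative.ofAdd v))⟩
  have := inv_eq (H := G) (N := Multiplicative V) (c := c) (fun y hy => hc y.toAdd hy) h1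
    (AddSubgroup.toSubgroup W) (fun g x hx => hW g x.toAdd hx)
  rcases this with h | h
  · left
    rw [eq_bot_iff]
    intro x hx
    have : Multiplicative.ofAdd x ∈ AddSubgroup.toSubgroup W := hx
    rw [h] at this
    exact this
  · right
    rw [eq_top_iff]
    intro x _
    have : Multiplicative.ofAdd x ∈ AddSubgroup.toSubgroup W := h ▸ Subgroup.mem_top _
    exact this

theorem lin_irr' [Finite G] [Finite V] (ρ : G →* (V ≃ₗ[R] V)) (hρ : Function.Injective ρ) {c : ℕ}
    (h1 : 1 < c) (hc : ∀ v : V, v ≠ 0 → Nat.card {g : G // ρ g v = v} = c) (W : Submodule R V)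
    (hW : ∀ g, ∀ w ∈ W, ρ g w ∈ W) : W = ⊥ ∨ W = ⊤ := by
  rcases lin_irr ρ hρ h1 hc W.toAddSubgroup hW with h | h
  · left
    rw [eq_bot_iff]
    intro x hx
    have : x ∈ W.toAddSubgroup := hx
    rw [h] at this
    exact this
  · right
    rw [eq_top_iff]
    intro x _
    have : x ∈ W.toAddSubgroup := h ▸ AddSubgroup.mem_top _
    exact this

/-- the fixed space of `ρ g` -/
def fixS (ρ : G →* (V ≃ₗ[R] V)) (g : G) : Submodule R V where
  carrier := {v | ρ g v = v}
  zero_mem' := map_zero _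
  add_mem' := fun {a b} ha hb => by
    have ha : ρ g a = a := ha
    have hb : ρ g b = b := hb
    show ρ g (a + b) = a + b
    rw [map_add, ha, hb]
  smul_mem' := fun r a ha => by
    have ha : ρ g a = a := ha
    show ρ g (r • a) = r • a
    rw [map_smul, ha]

@[simp] theorem mem_fixS {ρ : G →* (V ≃ₗ[R] V)} {g : G} {v : V} : v ∈ fixS ρ g ↔ ρ g v = v := Iff.rfl

theorem rho_mul (ρ : G →* (V ≃ₗ[R] V)) (a b : G) (v : V) : ρ (a * b) v = ρ a (ρ b v) := by simp

theorem fixS_ne_top {ρ : G →* (V ≃ₗ[R] V)} (hρ : Function.Injective ρ) {g : G} (hg : g ≠ 1) :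
    fixS ρ g ≠ ⊤ := by
  intro h
  apply hg
  apply hρ
  ext v
  have : v ∈ fixS ρ g := h ▸ Submodule.mem_top
  simpa using this

theorem fixS_center {ρ : G →* (V ≃ₗ[R] V)} (hρ : Function.Injective ρ)
    (hirr : ∀ W : Submodule R V, (∀ g : G, ∀ w ∈ W, ρ g w ∈ W) → W = ⊥ ∨ W = ⊤) {z : G}
    (hz : z ∈ Subgroup.center G) (h1 : z ≠ 1) {v : V} (hv : ρ z v = v) : v = 0 := by
  rcases hirr (fixS ρ z) (fun g w hw => by
    rw [mem_fixS] at hw ⊢
    rw [← rho_mul, ← Subgroup.mem_center_iff.1 hz g, rho_mul, hw]) with h | h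
  · have : v ∈ fixS ρ z := hv
    rw [h] at this
    exact this
  · exact absurd h (fixS_ne_top hρ h1)

theorem center_invol {ρ : G →* (V ≃ₗ[R] V)} (hρ : Function.Injective ρ)
    (hirr : ∀ W : Submodule R V, (∀ g : G, ∀ w ∈ W, ρ g w ∈ W) → W = ⊥ ∨ W = ⊤) {z : G}
    (hz : z ∈ Subgroup.center G) (h1 : z ≠ 1) (h2 : z * z = 1) (v : V) : ρ z v = -v := by
  have := fixS_center hρ hirr hz h1 (v := ρ z v + v) (by
    rw [map_add, ← rho_mul, h2, map_one, add_comm]; rfl)
  exact eq_neg_of_add_eq_zero_left this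

end H05.Half
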