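import Mathlib
import Cfsg.Agent.H05.HalfLin
import Cfsg.Agent.H04.Symplectic
import Cfsg.Agent.H04.Aut
import Cfsg.Agent.H18.FC1
import Cfsg.Agent.BG.Api

/-!
Roquette decomposition (namespace `H05.Half`): a `p`-group acting faithfully and irreducibly with a
non-cyclic normal abelian subgroup has `a, z, c` with `Roq a z c` (`z` central of order `p`, `a ^ p = 1`,
`g a g⁻¹ = a z ^ c g`, `c` onto `ZMod p`); the fixed spaces `W i` of `a z ^ i` decompose `V`
(`Roq.iSup_W`, `Roq.indep`) and are permuted cyclically (`Roq.map_W`).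
-/

set_option autoImplicit false
open Subgroup BG
open scoped commutatorElement

namespace H05.Half

variable {G : Type*} [Group G] {p : ℕ} [hp : Fact p.Prime]

structure Roq (a z : G) (c : G →* Multiplicative (ZMod p)) : Prop where
  ord : orderOf z = p
  cen : z ∈ center G
  pow : a ^ p = 1
  surj : Function.Surjective c
  conj : ∀ g, g * a * g⁻¹ = a * z ^ (c g).toAdd.val

theorem pw_add {z : G} (hz : orderOf z = p) (i j : ZMod p) :
    z ^ (i + j).val = z ^ i.val * z ^ j.val := by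
  rw [ZMod.val_add, ← pow_add]
  conv_lhs => rw [show (i.val + j.val) % p = (i.val + j.val) % orderOf z by rw [hz]]
  exact pow_mod_orderOf z _

theorem pw_inj {z : G} (hz : orderOf z = p) {i j : ZMod p} (h : z ^ i.val = z ^ j.val) : i = j := by
  rw [pow_eq_pow_iff_modEq, hz] at h
  apply ZMod.val_injective
  exact Nat.ModEq.eq_of_lt_of_lt h (ZMod.val_lt i) (ZMod.val_lt j)

theorem exists_pw {z : G} (hz : orderOf z = p) {x : G} (hx : x ∈ zpowers z) :
    ∃ i : ZMod p, x = z ^ i.val := by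
  obtain ⟨n, rfl⟩ := (IsOfFinOrder.mem_powers_iff_mem_zpowers
    (by rw [← orderOf_pos_iff, hz]; exact hp.out.pos)).2 hx
  refine ⟨n, ?_⟩
  rw [ZMod.val_natCast]
  conv_rhs => rw [← hz]
  exact (pow_mod_orderOf z _).symm

theorem exists_roq_of_elem [Finite G] (hG : IsPGroup p G) (hZ : IsCyclic (center G)) {A : Subgroup G}
    [hA : A.Normal] (hE : Cfsg.IsElementaryAbelian p A) (hc : Nat.card A = p ^ 2) :
    ∃ (a z : G) (c : G →* Multiplicative (ZMod p)), a ∈ A ∧ z ∈ A ∧ Roq a z c := by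
  have hp1 := hp.out.one_lt
  have hA0 : A ≠ ⊥ := by
    rintro rfl
    rw [card_bot] at hc
    have : 1 < p ^ 2 := Nat.one_lt_pow (by norm_num) hp1
    omega
  have hnc : ¬ A ≤ center G := by
    intro h
    have : IsCyclic A := isCyclic_of_le h
    have := hE.card_le_of_cyclic hp.out this
    rw [hc] at this
    nlinarith
  have hlt : ⁅A, (⊤ : Subgroup G)⁆ < A := nil_comm_lt (by simp [normalizer_eq_top])
    (pg_nil hp.out (hG.to_subgroup _)) hA0
  have hB0 : ⁅A, (⊤ : Subgroup G)⁆ ≠ ⊥ := by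
    intro h
    apply hnc
    intro x hx
    rw [mem_center_iff]
    intro g
    have : ⁅x, g⁆ ∈ ⁅A, (⊤ : Subgroup G)⁆ := commutator_mem_commutator hx (mem_top g)
    rw [h, mem_bot, commutatorElement_eq_one_iff_mul_comm] at this
    exact this.symm
  have hB : Nat.card ↥⁅A, (⊤ : Subgroup G)⁆ = p := by
    have h1 := card_dvd_of_le hlt.le
    rw [hc] at h1
    obtain ⟨k, hk, e⟩ := (Nat.dvd_prime_pow hp.out).1 h1
    interval_cases k
    · exact absurd (Subgroup.card_eq_one.1 (by simpa using e)) hB0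
    · simpa using e
    · exact absurd (eq_of_le_of_card_ge hlt.le (by rw [hc, e])) hlt.ne
  have hBc : (⊤ : Subgroup G) ≤ C_(⁅A, (⊤ : Subgroup G)⁆) :=
    pg_le_cent_of_card hp.out (hG.to_subgroup _) hB (by simp [normalizer_eq_top])
  obtain ⟨z, hz⟩ := cyclic_iff.1 (isCyclic_of_prime_card hB)
  have hzo : orderOf z = p := by rw [← Nat.card_zpowers, hz, hB]
  have hzB : z ∈ ⁅A, (⊤ : Subgroup G)⁆ := hz ▸ mem_zpowers z
  have hzc : z ∈ center G := mem_center_iff.2 fun g => (hBc (mem_top g) z hzB).symm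
  obtain ⟨a, ha, hac⟩ := SetLike.not_le_iff_exists.1 hnc
  have hex : ∀ g : G, ∃ i : ZMod p, g * a * g⁻¹ = a * z ^ i.val := by
    intro g
    have : ⁅a⁻¹, g⁆ ∈ zpowers z := hz ▸ commutator_mem_commutator (A.inv_mem ha) (mem_top g)
    obtain ⟨i, hi⟩ := exists_pw hzo this
    refine ⟨i, ?_⟩
    rw [← hi, commutatorElement_def]; group
  choose f hf using hex
  have hcomm : ∀ (g : G) (n : ℕ), g * z ^ n * g⁻¹ = z ^ n := fun g n => by
    rw [mem_center_iff.1 (pow_mem hzc n) g]; group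
  let c : G →* Multiplicative (ZMod p) := MonoidHom.mk' (fun g => Multiplicative.ofAdd (f g)) (by
    intro g h
    show Multiplicative.ofAdd (f (g * h)) = Multiplicative.ofAdd (f g + f h)
    congr 1
    apply pw_inj hzo
    apply mul_left_cancel (a := a)
    rw [← hf, pw_add hzo, ← mul_assoc, ← hf, ← hcomm g (f h).val]
    have : g * h * a * (g * h)⁻¹ = g * (h * a * h⁻¹) * g⁻¹ := by group
    rw [this, hf]; group)
  refine ⟨a, z, c, ha, hlt.le hzB, hzo, hzc, hE.2 a ha, ?_, hf⟩
  rw [← MonoidHom.range_eq_top]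
  haveI : Fact (Nat.card (Multiplicative (ZMod p))).Prime := ⟨by simpa using hp.out⟩
  rcases c.range.eq_bot_or_eq_top_of_prime_card with h | h
  · exfalso
    apply hac
    rw [mem_center_iff]
    intro g
    have : c g ∈ c.range := ⟨g, rfl⟩
    rw [h, mem_bot] at this
    have h0 : f g = 0 := this
    have := hf g
    rw [h0, ZMod.val_zero, pow_zero, mul_one] at this
    exact mul_inv_eq_iff_eq_mul.1 this
  · exact h

variable {q : ℕ} [hq : Fact q.Prime] {V : Type*} [AddCommGroup V] [Module (ZMod q) V]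
  {ρ : G →* (V ≃ₗ[ZMod q] V)}

theorem center_cyclic [Finite G] [Finite V] [Nontrivial V] (hρ : Function.Injective ρ)
    (hirr : ∀ W : Submodule (ZMod q) V, (∀ g : G, ∀ w ∈ W, ρ g w ∈ W) → W = ⊥ ∨ W = ⊤) :
    IsCyclic (center G) := by
  have h : H18.IsFC (center G) := H18.IsFC.of_lin (ρ.comp (center G).subtype) fun v hv g hg => by
    by_contra e
    exact hv (fixS_center hρ hirr g.2 (fun e' => e (Subtype.ext e')) hg)
  have := h.isCyclic_of_comm ⊤ (fun a _ b _ => Subtype.ext (mem_center_iff.1 b.2 a))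
  exact isCyclic_of_surjective _ topEquiv.surjective

theorem exists_roq [Finite G] [Finite V] [Nontrivial V] (hG : IsPGroup p G) (hρ : Function.Injective ρ)
    (hirr : ∀ W : Submodule (ZMod q) V, (∀ g : G, ∀ w ∈ W, ρ g w ∈ W) → W = ⊥ ∨ W = ⊤)
    (hnc : ¬ IsCyclic G) (hnq : ∀ n : ℕ, ¬ Nonempty (G ≃* QuaternionGroup n))
    (hnd : ∀ n : ℕ, ¬ Nonempty (G ≃* DihedralGroup n)) (hnsd : ¬ Cfsg.IsQuasiDihedral G) :
    ∃ (a z : G) (c : G →* Multiplicative (ZMod p)), Roq a z c := by
  have : ∃ B : Subgroup G, B.Normal ∧ IsMulCommutative B ∧ ¬ IsCyclic B := by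
    by_contra hh
    push Not at hh
    rcases H04.isCyclic_or_isDSQ_of_normal hG hh with h | ⟨-, m, a, b, h⟩
    · exact hnc h
    · rcases h.iso' with ⟨k, h⟩ | ⟨k, h⟩ | h
      · exact hnd k h
      · exact hnq k h
      · exact hnsd h
  obtain ⟨B, hB, h1, h2⟩ := this
  obtain ⟨A, -, hA, hE, hc⟩ := H04.exists_normal_elemAb_sq_of_comm hG h1 h2
  obtain ⟨a, z, c, -, -, h⟩ := exists_roq_of_elem hG (center_cyclic hρ hirr) hE hc
  exact ⟨a, z, c, h⟩

theorem char_ne [Nontrivial V] {z : G} (hz : z ^ p = 1) (hf : ∀ v, ρ z v = v → v = 0) :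
    (p : ZMod q) ≠ 0 := by
  intro h
  have hpq : p = q := ((Nat.prime_dvd_prime_iff_eq hq.out hp.out).1
    ((ZMod.natCast_eq_zero_iff p q).1 h)).symm
  subst hpq
  have : CharP (Module.End (ZMod p) V) p := charP_of_injective_algebraMap
    (algebraMap (ZMod p) (Module.End (ZMod p) V)).injective p
  have h1 : ((ρ z : V →ₗ[ZMod p] V) - 1 : Module.End (ZMod p) V) ^ p = 0 := by
    rw [sub_pow_char_of_commute _ (Commute.one_right _), one_pow]
    ext v
    have : ((ρ z : V →ₗ[ZMod p] V) ^ p : Module.End (ZMod p) V) v = ρ (z ^ p) v := by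
      rw [map_pow, Module.End.pow_apply, LinearEquiv.pow_apply]; rfl
    simp [this, hz]
  have h2 : Function.Injective ((ρ z : V →ₗ[ZMod p] V) - 1 : Module.End (ZMod p) V) := by
    rw [injective_iff_map_eq_zero]
    intro v hv
    exact hf v (by simpa [sub_eq_zero] using hv)
  have h3 := Module.End.iterate_injective h2 p
  rw [h1] at h3
  obtain ⟨v, hv⟩ := exists_ne (0 : V)
  exact hv (h3 (by simp))

namespace Roq

variable {a z : G} {c : G →* Multiplicative (ZMod p)} (h : Roq a z c)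
include h

theorem comm (g : G) (n : ℕ) : g * z ^ n = z ^ n * g := mem_center_iff.1 (pow_mem h.cen n) g

theorem conj' (g : G) (i : ZMod p) :
    g * (a * z ^ i.val) * g⁻¹ = a * z ^ (i + (c g).toAdd).val := by
  rw [add_comm, pw_add h.ord, ← mul_assoc a, ← h.conj, mul_assoc (g * a), h.comm g⁻¹]; group

theorem ne_one (i : ZMod p) : a * z ^ i.val ≠ 1 := by
  intro e
  obtain ⟨g, hg⟩ := h.surj (Multiplicative.ofAdd 1)
  have := h.conj' g i
  rw [e, hg, pw_add h.ord, ← mul_assoc a, e] at this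
  have h1 : z ^ (0 : ZMod p).val = z ^ (1 : ZMod p).val := by simpa using this
  exact zero_ne_one (pw_inj h.ord h1)

theorem zp : z ^ p = 1 := by
  have := pow_orderOf_eq_one z
  rwa [h.ord] at this

theorem pow' (i : ZMod p) : (a * z ^ i.val) ^ p = 1 := by
  rw [Commute.mul_pow (h.comm a _), h.pow, one_mul, ← pow_mul, mul_comm, pow_mul, h.zp, one_pow]

theorem c_eq_one (i : ZMod p) : c (a * z ^ i.val) = 1 := by
  have := h.conj (a * z ^ i.val)
  have e : a * z ^ i.val * a * (a * z ^ i.val)⁻¹ = a * z ^ (0 : ZMod p).val := by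
    rw [mul_assoc a, ← h.comm a, mul_inv_cancel_right]; simp
  rw [e] at this
  exact (pw_inj h.ord (mul_left_cancel this)).symm

theorem index : c.ker.index = p := by
  rw [index_ker, MonoidHom.range_eq_top.2 h.surj]; simp

omit h in
/-- the components -/
def W (ρ : G →* (V ≃ₗ[ZMod q] V)) (a z : G) (i : ZMod p) : Submodule (ZMod q) V :=
  fixS ρ (a * z ^ i.val)

theorem smul_mem (g : G) {i : ZMod p} {w : V} (hw : w ∈ W ρ a z i) :
    ρ g w ∈ W ρ a z (i + (c g).toAdd) := by
  have hw : ρ (a * z ^ i.val) w = w := hw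
  show ρ (a * z ^ (i + (c g).toAdd).val) (ρ g w) = ρ g w
  rw [← h.conj', ← rho_mul, inv_mul_cancel_right, rho_mul, hw]

theorem map_W (g : G) (i : ZMod p) :
    (W ρ a z i).map (ρ g : V →ₗ[ZMod q] V) = W ρ a z (i + (c g).toAdd) := by
  apply le_antisymm
  · rintro _ ⟨w, hw, rfl⟩
    exact h.smul_mem g hw
  · intro w hw
    refine ⟨ρ g⁻¹ w, ?_, by simp⟩
    have := h.smul_mem g⁻¹ hw
    simpa using this

theorem eq_zero (hρ : Function.Injective ρ)
    (hirr : ∀ W : Submodule (ZMod q) V, (∀ g : G, ∀ w ∈ W, ρ g w ∈ W) → W = ⊥ ∨ W = ⊤)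
    {i j : ZMod p} (hij : i ≠ j) {w : V} (hi : w ∈ W ρ a z i) (hj : w ∈ W ρ a z j) : w = 0 := by
  have hi : ρ (a * z ^ i.val) w = w := hi
  have hj : ρ (a * z ^ j.val) w = w := hj
  refine fixS_center hρ hirr (z := z ^ (j - i).val) (pow_mem h.cen _) (fun e => hij ?_) ?_
  · have : z ^ (j - i).val = z ^ (0 : ZMod p).val := by simpa using e
    exact (sub_eq_zero.1 (pw_inj h.ord this)).symm
  · have : a * z ^ j.val = z ^ (j - i).val * (a * z ^ i.val) := by
      rw [← h.comm, mul_assoc, ← pw_add h.ord]; simp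
    rw [this, rho_mul, hi] at hj
    exact hj

theorem z_fpf (hρ : Function.Injective ρ)
    (hirr : ∀ W : Submodule (ZMod q) V, (∀ g : G, ∀ w ∈ W, ρ g w ∈ W) → W = ⊥ ∨ W = ⊤)
    {v : V} (hv : ρ z v = v) : v = 0 :=
  fixS_center hρ hirr h.cen (fun e => hp.out.one_lt.ne (by rw [← h.ord, e, orderOf_one])) hv

theorem indep [Nontrivial V] (hρ : Function.Injective ρ)
    (hirr : ∀ W : Submodule (ZMod q) V, (∀ g : G, ∀ w ∈ W, ρ g w ∈ W) → W = ⊥ ∨ W = ⊤) :
    iSupIndep (W ρ a z : ZMod p → Submodule (ZMod q) V) := by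
  intro i
  let b := a * z ^ i.val
  let e : V →ₗ[ZMod q] V := ∑ k ∈ Finset.range p, (ρ (b ^ k) : V →ₗ[ZMod q] V)
  have he : ∀ v, e v = ∑ k ∈ Finset.range p, ρ (b ^ k) v := fun v => by
    simp [e, LinearMap.sum_apply]
  have h1 : ∀ v, e v ∈ W ρ a z i := by
    intro v
    show ρ b (e v) = e v
    rw [he, map_sum]
    have := Finset.sum_range_succ (fun k => ρ (b ^ k) v) p
    rw [Finset.sum_range_succ'] at this
    have hb : b ^ p = b ^ 0 := by rw [h.pow', pow_zero]
    rw [hb] at this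
    rw [← add_right_cancel this]
    exact Finset.sum_congr rfl fun k _ => by rw [← rho_mul, pow_succ']
  have hc : ∀ k, c (b ^ k) = 1 := fun k => by rw [map_pow, h.c_eq_one, one_pow]
  have h2 : (⨆ j, ⨆ (_ : j ≠ i), W ρ a z j) ≤ LinearMap.ker e := by
    refine iSup_le fun j => iSup_le fun hj => fun w hw => ?_
    refine h.eq_zero hρ hirr hj ?_ (h1 w)
    rw [he]
    refine Submodule.sum_mem _ fun k _ => ?_
    simpa [hc] using h.smul_mem (b ^ k) hw
  rw [Submodule.disjoint_def]
  intro w hw hw'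
  have h3 : e w = 0 := h2 hw'
  have h4 : ∀ k, ρ (b ^ k) w = w := by
    intro k
    induction k with
    | zero => simp
    | succ k ih => rw [pow_succ', rho_mul, ih]; exact hw
  rw [he, Finset.sum_congr rfl (fun k _ => h4 k), Finset.sum_const, Finset.card_range,
    ← Nat.cast_smul_eq_nsmul (ZMod q), smul_eq_zero] at h3
  exact h3.resolve_left (char_ne (ρ := ρ) (z := z) h.zp fun v hv => h.z_fpf hρ hirr hv)

theorem iSup_W [Finite G] [Finite V] [Nontrivial V] (hρ : Function.Injective ρ)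
    (hirr : ∀ W : Submodule (ZMod q) V, (∀ g : G, ∀ w ∈ W, ρ g w ∈ W) → W = ⊥ ∨ W = ⊤) :
    iSup (W ρ a z : ZMod p → Submodule (ZMod q) V) = ⊤ := by
  refine (hirr _ fun g w hw => ?_).resolve_left fun h0 => ?_
  · have : (iSup (W ρ a z : ZMod p → _)).map (ρ g : V →ₗ[ZMod q] V) ≤ iSup (W ρ a z : ZMod p → _) := by
      rw [Submodule.map_iSup]
      exact iSup_le fun i => (h.map_W g i).le.trans (le_iSup _ _)
    exact this ⟨w, hw, rfl⟩
  · -- `a` acts on `V` with all `a z ^ i` fixed point free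
    have ha1 : a ≠ 1 := by simpa using h.ne_one 0
    have hao : orderOf a = p := orderOf_eq_prime h.pow ha1
    have hW : ∀ i : ZMod p, ∀ v, ρ (a * z ^ i.val) v = v → v = 0 := fun i v hv => by
      have : v ∈ iSup (W ρ a z : ZMod p → _) := Submodule.mem_iSup_of_mem i hv
      rwa [h0] at this
    let A : Subgroup G := zpowers a ⊔ zpowers z
    have hn : (zpowers z).Normal := ⟨fun x hx g => by
      rw [mem_center_iff.1 ((zpowers_le_of_mem h.cen) hx) g]; simpa using hx⟩
    have hA : ∀ x ∈ A, ∃ i j : ZMod p, x = a ^ i.val * z ^ j.val := by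
      intro x hx
      have : x ∈ ((A : Subgroup G) : Set G) := hx
      rw [Subgroup.mul_normal] at this
      obtain ⟨u, hu, v, hv, rfl⟩ := this
      obtain ⟨i, rfl⟩ := exists_pw hao hu
      obtain ⟨j, rfl⟩ := exists_pw h.ord hv
      exact ⟨i, j, rfl⟩
    have hFC : H18.IsFC A := H18.IsFC.of_lin (ρ.comp A.subtype) fun v hv g hg => by
      obtain ⟨i, j, e⟩ := hA g g.2
      have hg : ρ g v = v := hg
      by_contra h1
      apply hv
      by_cases hi : i = 0
      · rw [hi, ZMod.val_zero, pow_zero, one_mul] at e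
        exact fixS_center hρ hirr (z := g) (e ▸ pow_mem h.cen _) (fun e' => h1 (Subtype.ext e')) hg
      · apply hW (j * i⁻¹)
        have h4 : ∀ k, ρ (g ^ k) v = v := by
          intro k
          induction k with
          | zero => simp
          | succ k ih => rw [pow_succ', rho_mul, ih]; exact hg
        have := h4 (i⁻¹).val
        rw [e, Commute.mul_pow (h.comm _ _), ← pow_mul, ← pow_mul] at this
        have e1 : a ^ (i.val * i⁻¹.val) = a := by
          rw [← pow_mod_orderOf, hao, ← ZMod.val_mul, mul_inv_cancel₀ hi, ZMod.val_one, pow_one]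
        have e2 : z ^ (j.val * i⁻¹.val) = z ^ (j * i⁻¹).val := by
          rw [← pow_mod_orderOf, h.ord, ← ZMod.val_mul]
        rwa [e1, e2] at this
    have := hFC.mem_zpowers_of_comm (a := ⟨a, mem_sup_left (mem_zpowers a)⟩)
      (b := ⟨z, mem_sup_right (mem_zpowers z)⟩) (Subtype.ext (mem_center_iff.1 h.cen a))
      (by rw [← orderOf_coe, ← orderOf_coe]; exact (hao.trans h.ord.symm).dvd)
    obtain ⟨n, hn⟩ := this
    have hn : z ^ n = a := congrArg Subtype.val hn
    obtain ⟨i, hi⟩ := exists_pw h.ord (x := a⁻¹) (inv_mem ⟨n, hn⟩)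
    exact h.ne_one i (by rw [← hi, mul_inv_cancel])

end Roq

end H05.Half
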