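import Cfsg.Agent.L.Js0

/-! Part T of S5572. -/

set_option autoImplicit false
open Cfsg BG Subgroup

namespace H05.S5T
universe u

theorem t' (sc : ∀ y : Spor.M22, orderOf y = 5 → Nat.card (centralizer ({y} : Set Spor.M22)) = 5)
    {G : Type u} [Group G] [Finite G] (δ x σ : G) (c6 : Nat.card ↥(center ↥C_[δ]) = 6)
    (iso : Spor.IsoM22 (↥C_[δ] ⧸ center ↥C_[δ])) (cj : IsConj δ x) (sx : σ ∈ C_[x]) (s5 : orderOf σ = 5) :
    Nat.card ↥(C_[x] ⊓ C_[σ]) ∣ 30 := by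
  obtain ⟨e⟩ := iso
  obtain ⟨g, rfl⟩ := isConj_iff.1 cj
  have mem : ∀ a ∈ C_[g * δ * g⁻¹], g⁻¹ * a * g ∈ C_[δ] := fun a i => by
    rw [mem_centralizer_singleton_iff] at i ⊢
    calc g⁻¹ * a * g * δ = g⁻¹ * (a * (g * δ * g⁻¹)) * g := by group
      _ = δ * (g⁻¹ * a * g) := by rw [i]; group
  let ψ : ↥C_[g * δ * g⁻¹] →* ↥C_[δ] :=
    { toFun := fun a => ⟨g⁻¹ * a * g, mem a a.2⟩
      map_one' := Subtype.ext (by simp)
      map_mul' := fun a b => Subtype.ext (by simp [mul_assoc]) }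
  have ψi : Function.Injective ψ := fun a b k => Subtype.ext (by simpa [ψ] using congrArg Subtype.val k)
  let θ : ↥C_[δ] →* Spor.M22 := e.toMonoidHom.comp (QuotientGroup.mk' _)
  have θk : ∀ a, θ a = 1 ↔ a ∈ center ↥C_[δ] := fun a =>
    (map_eq_one_iff e e.injective).trans (QuotientGroup.eq_one_iff a)
  let s : ↥C_[g * δ * g⁻¹] := ⟨σ, sx⟩
  have o5 : orderOf (ψ s) = 5 := (orderOf_injective ψ ψi s).trans ((orderOf_coe s).symm.trans s5)
  have : Fact (Nat.Prime 5) := ⟨by norm_num⟩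
  have y5 : orderOf (θ (ψ s)) = 5 := orderOf_eq_prime (by rw [← map_pow, ← o5, pow_orderOf_eq_one, map_one]) fun k => by
    have := orderOf_dvd_natCard _ ((θk _).1 k)
    rw [o5, c6] at this
    norm_num at this
  let φ : ↥(C_[g * δ * g⁻¹] ⊓ C_[σ]) →* Spor.M22 := (θ.comp ψ).comp (inclusion inf_le_left)
  have a : Nat.card φ.range ∣ 5 := sc _ y5 ▸ card_dvd_of_le (by
    rintro _ ⟨b, rfl⟩
    rw [mem_centralizer_singleton_iff]
    show θ (ψ _) * θ (ψ s) = θ (ψ s) * θ (ψ _)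
    rw [← map_mul, ← map_mul, ← map_mul, ← map_mul]
    congr 2
    exact Subtype.ext (mem_centralizer_singleton_iff.1 b.2.2))
  have b : Nat.card φ.ker ∣ 6 := c6 ▸ card_dvd_of_injective
    (((ψ.comp (inclusion inf_le_left)).comp φ.ker.subtype).codRestrict _ fun b => (θk _).1 b.2) fun a b k =>
      Subtype.ext (inclusion_injective _ (ψi (congrArg Subtype.val k)))
  rw [← φ.ker.card_mul_index, index_ker]
  exact mul_dvd_mul b a

end H05.S5T
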