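import Mathlib
import Cfsg.Agent.H14.HSG

/-!
The strongly regular graph with parameters (77, 16, 0, 4), part 1: the vectors `H05.Sr.uu G x z`
(projections to the five-dimensional local eigenspace), their Gram matrix `gram`, the values
`uu_cases`, and the Hoffman bound `hoffman`.
-/

set_option autoImplicit false

open Finset Matrix H14

namespace H05.Sr

variable {V : Type*} [Fintype V] [DecidableEq V] (G : SimpleGraph V) [DecidableRel G.Adj]

/-- sum over neighbours -/
def nb (f : V → ℤ) : V → ℤ := G.adjMatrix ℤ *ᵥ f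

theorem nb_apply (f : V → ℤ) (v : V) : nb G f v = ∑ u ∈ G.neighborFinset v, f u :=
  SimpleGraph.adjMatrix_mulVec_apply G v f

theorem nb_symm (f g : V → ℤ) : ∑ v, nb G f v * g v = ∑ v, f v * nb G g v := by
  change nb G f ⬝ᵥ g = f ⬝ᵥ nb G g
  rw [nb, nb, dotProduct_mulVec, ← mulVec_transpose, SimpleGraph.transpose_adjMatrix]

/-- coefficient vector -/
def cc (x z : V) : V → ℤ := fun v => (if v = z then -6 else 0) + (if v = x then 2 else 0) +
  (if G.Adj x v then 1 else 0) - (if G.Adj x v ∧ G.Adj z v then 3 else 0)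

/-- the eigenvector attached to `z` -/
def uu (x z : V) : V → ℤ := fun v => nb G (cc G x z) v - 2 * cc G x z v

variable {G} (hG : G.IsSRGWith 77 16 0 4)
include hG

theorem nb_nb (f : V → ℤ) (v : V) : nb G (nb G f) v = 12 * f v - 4 * nb G f v + 4 * ∑ u, f u := by
  have h1 := hG.matrix_eq (α := ℤ)
  have h2 : Gᶜ.adjMatrix ℤ = Matrix.of (fun _ _ => 1) - 1 - G.adjMatrix ℤ := by
    ext i j
    simp only [SimpleGraph.adjMatrix_apply, SimpleGraph.compl_adj, Matrix.sub_apply, of_apply,
      Matrix.one_apply]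
    by_cases h : i = j
    · simp [h]
    · by_cases h' : G.Adj i j <;> simp [h, h']
  rw [nb, nb, mulVec_mulVec, ← sq, h1, h2]
  simp only [add_mulVec, smul_mulVec, sub_mulVec, one_mulVec, Pi.add_apply, Pi.smul_apply,
    Pi.sub_apply]
  simp only [nsmul_eq_mul]
  have : (Matrix.of (fun _ _ => (1 : ℤ)) *ᵥ f) v = ∑ u, f u := by simp [mulVec, dotProduct]
  rw [this]; push_cast; ring

theorem sum_nb (f : V → ℤ) : ∑ v, nb G f v = 16 * ∑ v, f v := by
  have := nb_symm G f (fun _ => 1)
  simp only [mul_one, nb_apply G (fun _ => (1 : ℤ)), sum_const, srg_deg hG, nsmul_eq_mul] at this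
  rw [this, ← sum_mul]; push_cast; ring

variable {x z w : V}

theorem sum_cc (hz : z ∈ far G x) : ∑ v, cc G x z v = 0 := by
  have h1 := srg_deg hG x
  have h2 := srg_mu hG (mem_far.1 hz).1.symm (mem_far.1 hz).2
  simp only [cc, sum_add_distrib, sum_sub_distrib, sum_ite_eq', mem_univ, if_true]
  rw [← sum_filter, ← sum_filter, sum_const, sum_const]
  have e1 : univ.filter (fun v => G.Adj x v) = G.neighborFinset x := by ext; simp
  have e2 : univ.filter (fun v => G.Adj x v ∧ G.Adj z v) =
      G.neighborFinset x ∩ G.neighborFinset z := by ext; simp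
  rw [e1, e2, h1, h2]; norm_num

omit hG in
theorem nb_cc (v : V) : nb G (cc G x z) v = (if G.Adj v z then -6 else 0) +
    (if G.Adj v x then 2 else 0) + ((G.neighborFinset v ∩ G.neighborFinset x).card : ℤ) -
    3 * ((G.neighborFinset x ∩ G.neighborFinset z ∩ G.neighborFinset v).card : ℤ) := by
  rw [nb_apply]
  simp only [cc, sum_add_distrib, sum_sub_distrib, sum_ite_eq', SimpleGraph.mem_neighborFinset]
  rw [← sum_filter, ← sum_filter, sum_const, sum_const]
  have e1 : (G.neighborFinset v).filter (fun u => G.Adj x u) =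
      G.neighborFinset v ∩ G.neighborFinset x := by ext; simp
  have e2 : (G.neighborFinset v).filter (fun u => G.Adj x u ∧ G.Adj z u) =
      G.neighborFinset x ∩ G.neighborFinset z ∩ G.neighborFinset v := by ext; simp; tauto
  rw [e1, e2]; simp; ring

theorem uu_out (hz : z ∈ far G x) {v : V} (hv : v ∉ far G x) : uu G x z v = 0 := by
  obtain ⟨h1, h2⟩ := mem_far.1 hz
  rw [uu, nb_cc, cc]
  by_cases h : v = x
  · subst h
    have e : G.neighborFinset v ∩ G.neighborFinset z ∩ G.neighborFinset v =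
        G.neighborFinset v ∩ G.neighborFinset z := by ext; simp; tauto
    rw [e, inter_self, srg_deg hG, srg_mu hG h1.symm h2]
    simp [h2, h1.symm]
  · have hxv : G.Adj x v := by
      by_contra h'; exact hv (mem_far.2 ⟨h, h'⟩)
    have e1 : G.neighborFinset v ∩ G.neighborFinset x = ∅ := by
      ext u; simp only [mem_inter, SimpleGraph.mem_neighborFinset, notMem_empty, iff_false]
      exact fun h => srg_tri hG hxv h.2 h.1
    have e2 : G.neighborFinset x ∩ G.neighborFinset z ∩ G.neighborFinset v = ∅ := by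
      ext u; simp only [mem_inter, SimpleGraph.mem_neighborFinset, notMem_empty, iff_false]
      exact fun h => srg_tri hG hxv h.1.1 h.2
    have h3 : v ≠ z := fun e => h2 (e ▸ hxv)
    rw [e1, e2]
    by_cases h4 : G.Adj z v
    · simp [h, h3, hxv, hxv.symm, h4, h4.symm]
    · have h5 : ¬ G.Adj v z := fun e => h4 e.symm
      simp [h, h3, hxv, hxv.symm, h4, h5]

theorem uu_in {v : V} (hv : v ∈ far G x) : uu G x z v = (if v = z then 12 else 0) +
    (if G.Adj v z then -6 else 0) + 4 -
    3 * ((G.neighborFinset x ∩ G.neighborFinset z ∩ G.neighborFinset v).card : ℤ) := by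
  obtain ⟨h1, h2⟩ := mem_far.1 hv
  have h3 : ¬ G.Adj v x := fun e => h2 e.symm
  rw [uu, nb_cc, cc, srg_mu hG h1 h3]
  simp only [h1, h2, h3, false_and, if_false]
  split_ifs <;> push_cast <;> ring

theorem nb_uu (hz : z ∈ far G x) (v : V) : nb G (uu G x z) v = -6 * uu G x z v := by
  have : nb G (uu G x z) v = nb G (nb G (cc G x z)) v - 2 * nb G (cc G x z) v := by
    simp only [nb_apply G _ v, uu, sum_sub_distrib, mul_sum]
  rw [this, nb_nb hG, sum_cc hG hz, uu]; ring

theorem sum_uu (hz : z ∈ far G x) : ∑ v, uu G x z v = 0 := by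
  simp only [uu, sum_sub_distrib, ← mul_sum, sum_nb hG, sum_cc hG hz]; ring

omit hG in
theorem cc_far {v : V} (hv : v ∈ far G x) : cc G x z v = if v = z then -6 else 0 := by
  obtain ⟨h1, h2⟩ := mem_far.1 hv
  simp [cc, h1, h2]

theorem gram (hz : z ∈ far G x) (hw : w ∈ far G x) :
    ∑ v, uu G x z v * uu G x w v = 48 * uu G x w z := by
  have h1 : ∑ v, uu G x z v * uu G x w v =
      ∑ v, nb G (cc G x z) v * uu G x w v - 2 * ∑ v, cc G x z v * uu G x w v := by
    rw [mul_sum, ← sum_sub_distrib]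
    exact sum_congr rfl fun v _ => by rw [uu]; ring
  have h2 : ∑ v, cc G x z v * uu G x w v = -6 * uu G x w z := by
    rw [sum_eq_single z]
    · rw [cc_far hz, if_pos rfl]
    · intro v _ hv
      by_cases h : v ∈ far G x
      · rw [cc_far h, if_neg hv, zero_mul]
      · rw [uu_out hG hw h, mul_zero]
    · simp
  rw [h1, nb_symm]
  simp only [nb_uu hG hw]
  have : ∑ v, cc G x z v * (-6 * uu G x w v) = -6 * ∑ v, cc G x z v * uu G x w v := by
    rw [mul_sum]; exact sum_congr rfl fun v _ => by ring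
  rw [this, h2]; ring

theorem uu_symm (hz : z ∈ far G x) (hw : w ∈ far G x) : uu G x z w = uu G x w z := by
  have h1 := gram hG hz hw
  have h2 := gram hG hw hz
  simp only [mul_comm (uu G x w _)] at h2
  omega

theorem uu_self (hz : z ∈ far G x) : uu G x z z = 4 := by
  rw [uu_in hG hz, inter_assoc, inter_self, srg_mu hG (mem_far.1 hz).1.symm (mem_far.1 hz).2]
  simp

theorem uu_adj (hw : w ∈ far G x) (h : G.Adj w z) : uu G x z w = -2 := by
  have e2 : G.neighborFinset x ∩ G.neighborFinset z ∩ G.neighborFinset w = ∅ := by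
    ext u; simp only [mem_inter, SimpleGraph.mem_neighborFinset, notMem_empty, iff_false]
    exact fun h' => srg_tri hG h h'.2 h'.1.2
  rw [uu_in hG hw, e2]
  simp [h, h.ne]

theorem uu_cases (hz : z ∈ far G x) (hw : w ∈ far G x) :
    uu G x z w = 4 ∨ uu G x z w = 1 ∨ uu G x z w = -2 := by
  by_cases h1 : w = z
  · left; rw [h1, uu_self hG hz]
  by_cases h2 : G.Adj w z
  · right; right; exact uu_adj hG hw h2
  have h3 : 0 ≤ ∑ v, (uu G x z v + uu G x w v) ^ 2 := sum_nonneg fun _ _ => sq_nonneg _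
  have h4 : ∑ v, (uu G x z v + uu G x w v) ^ 2 = ∑ v, uu G x z v * uu G x z v +
      2 * ∑ v, uu G x w v * uu G x z v + ∑ v, uu G x w v * uu G x w v := by
    rw [mul_sum, ← sum_add_distrib, ← sum_add_distrib]
    exact sum_congr rfl fun v _ => by ring
  rw [h4, gram hG hz hz, gram hG hw hz, gram hG hw hw, uu_self hG hz, uu_self hG hw] at h3
  have h5 := uu_in hG (z := z) hw
  simp only [h1, h2, if_false] at h5
  omega

theorem eq_zero_of_sum_sq {f : V → ℤ} (h : ∑ v, f v ^ 2 = 0) (v : V) : f v = 0 :=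
  pow_eq_zero_iff (two_ne_zero) |>.1
    ((sum_eq_zero_iff_of_nonneg fun _ _ => sq_nonneg _).1 h v (mem_univ v))

theorem uu_eq (hz : z ∈ far G x) (hw : w ∈ far G x) (h : uu G x z w = 4) (v : V) :
    uu G x z v = uu G x w v := by
  have h4 : ∑ v, (uu G x z v - uu G x w v) ^ 2 = ∑ v, uu G x z v * uu G x z v -
      2 * ∑ v, uu G x w v * uu G x z v + ∑ v, uu G x w v * uu G x w v := by
    rw [mul_sum, ← sum_sub_distrib, ← sum_add_distrib]
    exact sum_congr rfl fun v _ => by ring
  rw [gram hG hz hz, gram hG hw hz, gram hG hw hw, uu_self hG hz, uu_self hG hw, h] at h4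
  exact sub_eq_zero.1 (eq_zero_of_sum_sq hG h4 v)

theorem uu_line {t : V} (hz : z ∈ far G x) (hw : w ∈ far G x) (ht : t ∈ far G x)
    (h1 : uu G x z w = -2) (h2 : uu G x z t = -2) (h3 : uu G x w t = -2) (v : V) :
    uu G x t v = -uu G x z v - uu G x w v := by
  have h4 : ∑ v, (uu G x z v + uu G x w v + uu G x t v) ^ 2 = ∑ v, uu G x z v * uu G x z v +
      ∑ v, uu G x w v * uu G x w v + ∑ v, uu G x t v * uu G x t v +
      2 * ∑ v, uu G x w v * uu G x z v + 2 * ∑ v, uu G x t v * uu G x z v +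
      2 * ∑ v, uu G x t v * uu G x w v := by
    simp only [mul_sum, ← sum_add_distrib]
    exact sum_congr rfl fun v _ => by ring
  rw [gram hG hz hz, gram hG hw hz, gram hG hw hw, gram hG ht ht, gram hG ht hz, gram hG ht hw,
    uu_self hG hz, uu_self hG hw, uu_self hG ht, h1, h2, h3] at h4
  have := eq_zero_of_sum_sq hG h4 v
  omega

/-- a coclique of size 21 -/
def IsCo (G : SimpleGraph V) (C : Finset V) : Prop :=
  C.card = 21 ∧ ∀ a ∈ C, ∀ b ∈ C, ¬ G.Adj a b

theorem hoffman {C : Finset V} (hC : IsCo G C) (v : V) :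
    nb G (fun u => if u ∈ C then 1 else 0) v = 6 - 6 * (if v ∈ C then 1 else 0) := by
  set χ : V → ℤ := fun u => if u ∈ C then 1 else 0 with hχ
  have s1 : ∑ u, χ u = 21 := by simp [hχ, hC.1]
  have s2 : ∑ u, χ u * χ u = 21 := by
    rw [← s1]; exact sum_congr rfl fun u _ => by simp only [hχ]; split_ifs <;> simp
  have s3 : ∑ u, χ u * nb G χ u = 0 := by
    refine sum_eq_zero fun u _ => ?_
    by_cases h : u ∈ C
    · rw [nb_apply, sum_eq_zero, mul_zero]
      intro t ht
      simp only [hχ]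
      rw [if_neg fun h' => hC.2 u h t h' (by simpa using ht)]
    · simp [hχ, h]
  have s4 : ∑ u, nb G χ u * nb G χ u = 2016 := by
    rw [nb_symm]
    simp only [nb_nb hG, s1]
    have : ∑ u, χ u * (12 * χ u - 4 * nb G χ u + 4 * 21) =
        12 * ∑ u, χ u * χ u - 4 * ∑ u, χ u * nb G χ u + 84 * ∑ u, χ u := by
      simp only [mul_sum, ← sum_add_distrib, ← sum_sub_distrib]
      exact sum_congr rfl fun v _ => by ring
    rw [this, s1, s2, s3]; norm_num
  have s5 := sum_nb hG χ
  have s6 : ∑ u : V, (36 : ℤ) = 2772 := by simp [hG.card]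
  have h4 : ∑ u, (nb G χ u - 6 + 6 * χ u) ^ 2 = ∑ u, nb G χ u * nb G χ u + ∑ u : V, (36 : ℤ) +
      36 * ∑ u, χ u * χ u - 12 * ∑ u, nb G χ u + 12 * ∑ u, χ u * nb G χ u - 72 * ∑ u, χ u := by
    simp only [mul_sum, ← sum_add_distrib, ← sum_sub_distrib]
    exact sum_congr rfl fun v _ => by ring
  rw [s1, s2, s3, s4, s5, s6, s1] at h4
  have := eq_zero_of_sum_sq hG (f := fun u => nb G χ u - 6 + 6 * χ u) h4 v
  simp only [hχ] at this ⊢
  omega

theorem sum_co {C : Finset V} (hC : IsCo G C) (hx : x ∈ C) (hw : w ∈ far G x) :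
    ∑ v ∈ C, uu G x w v = if w ∈ C then 32 else -16 := by
  have h1 : ∑ v ∈ C, uu G x w v = ∑ v, nb G (cc G x w) v * (if v ∈ C then 1 else 0) -
      2 * ∑ v, cc G x w v * (if v ∈ C then 1 else 0) := by
    rw [mul_sum, ← sum_sub_distrib, ← sum_filter_add_sum_filter_not univ (· ∈ C)]
    rw [sum_eq_zero (s := univ.filter (¬ · ∈ C)) (fun v hv => by simp [(mem_filter.1 hv).2]),
      add_zero, filter_mem_eq_inter, univ_inter]
    exact sum_congr rfl fun v hv => by simp [uu, hv]
  have h2 : ∑ v, cc G x w v * (if v ∈ C then 1 else 0) = (if w ∈ C then -6 else 0) + 2 := by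
    have : ∀ v, cc G x w v * (if v ∈ C then 1 else 0) =
        (if v = w then (if w ∈ C then -6 else 0) else 0) + (if v = x then 2 else 0) := by
      intro v
      by_cases hv : v ∈ C
      · have : ¬ G.Adj x v := hC.2 x hx v hv
        by_cases h : v = w
        · subst h; simp [cc, hv, this]
        · simp [cc, hv, this, h]
      · have h3 : v ≠ x := fun e => hv (e ▸ hx)
        by_cases h : v = w
        · subst h; simp [hv, h3]
        · simp [hv, h3, h]
    simp only [this, sum_add_distrib, sum_ite_eq', mem_univ, if_true]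
  rw [h1, nb_symm]
  simp only [hoffman hG hC]
  have : ∑ v, cc G x w v * (6 - 6 * if v ∈ C then 1 else 0) =
      6 * ∑ v, cc G x w v - 6 * ∑ v, cc G x w v * (if v ∈ C then 1 else 0) := by
    simp only [mul_sum, ← sum_sub_distrib]
    exact sum_congr rfl fun v _ => by ring
  rw [this, sum_cc hG hw, h2]
  split_ifs <;> norm_num

end H05.Sr
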