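import Mathlib
import Cfsg.Agent.H05.Sr1

/-!
The strongly regular graph with parameters (77, 16, 0, 4), part 2: local counts, and
`H05.Sr.two_co` (two vertices at distance two lie in exactly two cocliques of size 21).
-/

set_option autoImplicit false

open Finset Matrix H14

namespace H05.Sr

variable {V : Type*} [Fintype V] [DecidableEq V] {G : SimpleGraph V} [DecidableRel G.Adj]
  (hG : G.IsSRGWith 77 16 0 4)
include hG

variable {x a w : V}

theorem sum_far (f : V → ℤ) (h : ∀ v, v ∉ far G x → f v = 0) : ∑ v ∈ far G x, f v = ∑ v, f v :=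
  sum_subset (subset_univ _) fun v _ hv => h v hv

theorem count (ha : a ∈ far G x) (hw : w ∈ far G x) (P : V → Prop) [DecidablePred P]
    (k α β γ δ ε ζ : ℤ) (h : ∀ v ∈ far G x, k * (if P v then 1 else 0) =
      α + β * uu G x a v + γ * uu G x w v + δ * (uu G x a v * uu G x a v) +
        ε * (uu G x w v * uu G x w v) + ζ * (uu G x w v * uu G x a v)) :
    k * (((far G x).filter P).card : ℤ) = 60 * α + 192 * δ + 192 * ε + 48 * ζ * uu G x a w := by
  have h1 := sum_congr rfl h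
  simp only [sum_add_distrib, ← mul_sum, sum_const, card_far hG] at h1
  rw [sum_far hG _ (fun v hv => uu_out hG ha hv), sum_far hG _ (fun v hv => uu_out hG hw hv),
    sum_far hG (fun v => uu G x a v * uu G x a v) (fun v hv => by rw [uu_out hG ha hv, mul_zero]),
    sum_far hG (fun v => uu G x w v * uu G x w v) (fun v hv => by rw [uu_out hG hw hv, mul_zero]),
    sum_far hG (fun v => uu G x w v * uu G x a v) (fun v hv => by rw [uu_out hG ha hv, mul_zero]),
    sum_uu hG ha, sum_uu hG hw,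
    gram hG ha ha, gram hG hw hw, gram hG hw ha, uu_self hG ha, uu_self hG hw] at h1
  rw [card_filter]
  push_cast
  rw [h1]; simp; ring

theorem pair_cases (ha : a ∈ far G x) (hw : w ∈ far G x) {v : V} (hv : v ∈ far G x) :
    (uu G x a v = 4 ∧ uu G x w v = uu G x a w) ∨ (uu G x a v = uu G x a w ∧ uu G x w v = 4) ∨
      ((uu G x a v = 1 ∨ uu G x a v = -2) ∧ (uu G x w v = 1 ∨ uu G x w v = -2)) := by
  by_cases h1 : uu G x a v = 4
  · left; exact ⟨h1, by rw [uu_symm hG hw hv, uu_eq hG ha hv h1]⟩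
  by_cases h2 : uu G x w v = 4
  · right; left; exact ⟨by rw [uu_symm hG ha hv, ← uu_eq hG hw hv h2, uu_symm hG ha hw], h2⟩
  · right; right
    exact ⟨(uu_cases hG ha hv).resolve_left h1, (uu_cases hG hw hv).resolve_left h2⟩

theorem cnt4 (ha : a ∈ far G x) : ((far G x).filter fun v => uu G x a v = 4).card = 4 := by
  have := count hG ha ha (fun v => uu G x a v = 4) 18 (-2) 1 0 1 0 0 fun v hv => by
    rcases uu_cases hG ha hv with h | h | h <;> simp [h]
  omega

theorem cnt1 (ha : a ∈ far G x) : ((far G x).filter fun v => uu G x a v = 1).card = 32 := by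
  have := count hG ha ha (fun v => uu G x a v = 1) 9 8 2 0 (-1) 0 0 fun v hv => by
    rcases uu_cases hG ha hv with h | h | h <;> simp [h]
  omega

theorem cnt12 (ha : a ∈ far G x) (hw : w ∈ far G x) (h : uu G x a w = 1) :
    ((far G x).filter fun v => uu G x a v = 1 ∧ uu G x w v = -2).card = 12 := by
  have := count hG ha hw (fun v => uu G x a v = 1 ∧ uu G x w v = -2) 18 2 2 (-3) 0 1 (-2)
    fun v hv => by
      rcases pair_cases hG ha hw hv with ⟨h1, h2⟩ | ⟨h1, h2⟩ | ⟨h1 | h1, h2 | h2⟩ <;>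
        simp [h, h1, h2]
  rw [h] at this
  omega

theorem cnt22 (ha : a ∈ far G x) (hw : w ∈ far G x) (h : uu G x a w = 1) :
    ((far G x).filter fun v => uu G x a v = -2 ∧ uu G x w v = -2).card = 12 := by
  have := count hG ha hw (fun v => uu G x a v = -2 ∧ uu G x w v = -2) 9 1 (-1) (-1) 0 0 1
    fun v hv => by
      rcases pair_cases hG ha hw hv with ⟨h1, h2⟩ | ⟨h1, h2⟩ | ⟨h1 | h1, h2 | h2⟩ <;>
        simp [h, h1, h2]
  rw [h] at this
  omega

theorem line (ha : a ∈ far G x) (hw : w ∈ far G x) (h : uu G x a w = -2) :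
    ∃ t ∈ far G x, ∀ v, uu G x t v = -uu G x a v - uu G x w v := by
  have := count hG ha hw (fun v => uu G x a v = -2 ∧ uu G x w v = -2) 18 (-2) (-1) (-1) 1 1 2
    fun v hv => by
      rcases pair_cases hG ha hw hv with ⟨h1, h2⟩ | ⟨h1, h2⟩ | ⟨h1 | h1, h2 | h2⟩ <;>
        simp [h, h1, h2]
  rw [h] at this
  obtain ⟨t, ht⟩ : ((far G x).filter fun v => uu G x a v = -2 ∧ uu G x w v = -2).Nonempty :=
    card_pos.1 (by omega)
  obtain ⟨t1, t2, t3⟩ := mem_filter.1 ht
  exact ⟨t, t1, uu_line hG ha hw t1 h t2 t3⟩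

theorem exists_ovoid (ha : a ∈ far G x) : ∃ O : Finset V, a ∈ O ∧ O ⊆ far G x ∧ O.card = 5 ∧
    ∀ p ∈ O, ∀ q ∈ O, p ≠ q → uu G x p q = 1 := by
  obtain ⟨b, hb⟩ : ((far G x).filter fun v => uu G x a v = 1).Nonempty :=
    card_pos.1 (by rw [cnt1 hG ha]; omega)
  obtain ⟨hb, hab⟩ := mem_filter.1 hb
  have c22 := cnt22 hG ha hb hab
  set T := (far G x).filter fun v => uu G x a v = -2 ∧ uu G x b v = -2 with hT
  obtain ⟨s₁, hs₁⟩ : T.Nonempty := card_pos.1 (by omega)
  obtain ⟨f1, a1, b1⟩ := mem_filter.1 hs₁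
  obtain ⟨s₂, hs₂⟩ : (T \ (far G x).filter fun v => uu G x s₁ v = 4).Nonempty := by
    have := le_card_sdiff ((far G x).filter fun v => uu G x s₁ v = 4) T
    rw [cnt4 hG f1] at this
    exact card_pos.1 (by omega)
  obtain ⟨hs₂, n12⟩ := mem_sdiff.1 hs₂
  obtain ⟨f2, a2, b2⟩ := mem_filter.1 hs₂
  obtain ⟨s₃, hs₃⟩ : (T \ (((far G x).filter fun v => uu G x s₁ v = 4) ∪
      (far G x).filter fun v => uu G x s₂ v = 4)).Nonempty := by
    have := le_card_sdiff (((far G x).filter fun v => uu G x s₁ v = 4) ∪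
      (far G x).filter fun v => uu G x s₂ v = 4) T
    have h2 := card_union_le ((far G x).filter fun v => uu G x s₁ v = 4)
      ((far G x).filter fun v => uu G x s₂ v = 4)
    rw [cnt4 hG f1, cnt4 hG f2] at h2
    exact card_pos.1 (by omega)
  obtain ⟨hs₃, n3⟩ := mem_sdiff.1 hs₃
  obtain ⟨f3, a3, b3⟩ := mem_filter.1 hs₃
  simp only [mem_union, mem_filter, f2, f3, true_and, not_or] at n12 n3
  have key : ∀ s t, s ∈ far G x → t ∈ far G x → uu G x a s = -2 → uu G x b s = -2 →
      uu G x a t = -2 → uu G x b t = -2 → uu G x s t ≠ 4 → uu G x s t = 1 := by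
    intro s t hs ht h1 h2 h3 h4 h5
    rcases uu_cases hG hs ht with h | h | h
    · exact absurd h h5
    · exact h
    · have e1 := uu_line hG hs ht ha h (by rw [uu_symm hG hs ha, h1]) (by rw [uu_symm hG ht ha, h3]) b
      rw [hab, uu_symm hG hs hb, uu_symm hG ht hb, h2, h4] at e1
      omega
  have m12 := key s₁ s₂ f1 f2 a1 b1 a2 b2 n12
  have m13 := key s₁ s₃ f1 f3 a1 b1 a3 b3 n3.1
  have m23 := key s₂ s₃ f2 f3 a2 b2 a3 b3 n3.2
  obtain ⟨c₁, g1, k1⟩ := line hG hb f1 b1
  obtain ⟨c₂, g2, k2⟩ := line hG hb f2 b2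
  obtain ⟨c₃, g3, k3⟩ := line hG hb f3 b3
  obtain ⟨t, gt, kt⟩ := line hG ha f3 a3
  have sa := uu_self hG ha
  have sb := uu_self hG hb
  have ss1 := uu_self hG f1
  have ss2 := uu_self hG f2
  have ss3 := uu_self hG f3
  have hba := uu_symm hG hb ha
  have a1' := uu_symm hG f1 ha
  have a2' := uu_symm hG f2 ha
  have a3' := uu_symm hG f3 ha
  have b1' := uu_symm hG f1 hb
  have b2' := uu_symm hG f2 hb
  have b3' := uu_symm hG f3 hb
  have m21 := uu_symm hG f2 f1
  have m31 := uu_symm hG f3 f1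
  have m32 := uu_symm hG f3 f2
  have ct : uu G x c₁ t = -2 := by
    rw [k1, uu_symm hG hb gt, uu_symm hG f1 gt, kt, kt]; omega
  obtain ⟨e, ge, ke⟩ := line hG g1 gt ct
  have es : uu G x e s₂ = -2 := by rw [ke, k1, kt]; omega
  obtain ⟨b', gb, kb⟩ := line hG ge f2 es
  have kb' : ∀ v, uu G x b' v =
      -(uu G x a v + uu G x b v + uu G x s₁ v + uu G x s₂ v + uu G x s₃ v) := by
    intro v; rw [kb, ke, k1, kt]; ring
  have ev : ∀ p ∈ far G x, uu G x p c₁ = -uu G x p b - uu G x p s₁ ∧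
      uu G x p c₂ = -uu G x p b - uu G x p s₂ ∧ uu G x p c₃ = -uu G x p b - uu G x p s₃ := by
    intro p hp
    rw [uu_symm hG hp g1, uu_symm hG hp g2, uu_symm hG hp g3, uu_symm hG hp hb, uu_symm hG hp f1,
      uu_symm hG hp f2, uu_symm hG hp f3, k1, k2, k3]
    exact ⟨rfl, rfl, rfl⟩
  obtain ⟨x1, x2, x3⟩ := ev a ha
  obtain ⟨y1, y2, y3⟩ := ev b hb
  obtain ⟨z1, z2, z3⟩ := ev s₁ f1
  obtain ⟨z4, z5, z6⟩ := ev s₂ f2
  obtain ⟨z7, z8, z9⟩ := ev s₃ f3
  have r1 : uu G x a c₁ = 1 := by omega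
  have r2 : uu G x a c₂ = 1 := by omega
  have r3 : uu G x a c₃ = 1 := by omega
  have r4 : uu G x b' a = 1 := by rw [kb']; omega
  have r5 : uu G x b' c₁ = 1 := by rw [kb']; omega
  have r6 : uu G x b' c₂ = 1 := by rw [kb']; omega
  have r7 : uu G x b' c₃ = 1 := by rw [kb']; omega
  have r8 : uu G x c₁ c₂ = 1 := by rw [k1]; omega
  have r9 : uu G x c₁ c₃ = 1 := by rw [k1]; omega
  have r10 : uu G x c₂ c₃ = 1 := by rw [k2]; omega
  have ne : ∀ p q, p ∈ far G x → uu G x p q = 1 → p ≠ q := by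
    rintro p q hp h rfl
    rw [uu_self hG hp] at h; omega
  refine ⟨{b', a, c₁, c₂, c₃}, by simp, ?_, ?_, ?_⟩
  · intro p hp
    simp only [mem_insert, mem_singleton] at hp
    rcases hp with rfl | rfl | rfl | rfl | rfl <;> assumption
  · rw [card_insert_of_notMem (by simp [ne _ _ gb r4, ne _ _ gb r5, ne _ _ gb r6, ne _ _ gb r7]),
      card_insert_of_notMem (by simp [ne _ _ ha r1, ne _ _ ha r2, ne _ _ ha r3]),
      card_insert_of_notMem (by simp [ne _ _ g1 r8, ne _ _ g1 r9]),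
      card_pair (ne _ _ g2 r10)]
  · have r1' := (uu_symm hG g1 ha).trans r1
    have r2' := (uu_symm hG g2 ha).trans r2
    have r3' := (uu_symm hG g3 ha).trans r3
    have r4' := (uu_symm hG ha gb).trans r4
    have r5' := (uu_symm hG g1 gb).trans r5
    have r6' := (uu_symm hG g2 gb).trans r6
    have r7' := (uu_symm hG g3 gb).trans r7
    have r8' := (uu_symm hG g2 g1).trans r8
    have r9' := (uu_symm hG g3 g1).trans r9
    have r10' := (uu_symm hG g3 g2).trans r10
    intro p hp q hq hpq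
    simp only [mem_insert, mem_singleton] at hp hq
    rcases hp with rfl | rfl | rfl | rfl | rfl <;> rcases hq with rfl | rfl | rfl | rfl | rfl <;>
      first | assumption | exact absurd rfl hpq

theorem isCo_insert {S : Finset V} (hS : S ⊆ far G x) (hc : S.card = 20)
    (h : ∀ p ∈ S, ∀ q ∈ S, uu G x p q ≠ -2) : IsCo G (insert x S) := by
  refine ⟨by rw [card_insert_of_notMem fun h => (mem_far.1 (hS h)).1 rfl, hc], ?_⟩
  intro p hp q hq
  rcases mem_insert.1 hp with e1 | hp' <;> rcases mem_insert.1 hq with e2 | hq'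
  · rw [e1, e2]; exact G.irrefl
  · rw [e1]; exact (mem_far.1 (hS hq')).2
  · rw [e2]; exact fun h => (mem_far.1 (hS hp')).2 h.symm
  · exact fun h' => h q hq' p hp' (uu_adj hG (hS hp') h')

theorem exists_co (ha : a ∈ far G x) : ∃ C, IsCo G C ∧ x ∈ C ∧ a ∈ C := by
  obtain ⟨O, h1, h2, h3, h4⟩ := exists_ovoid hG ha
  have hm : ∀ p ∈ O, ∀ q ∈ O, ∀ v ∈ far G x, ∀ v' ∈ far G x, uu G x p v = 4 → uu G x q v' = 4 →
      uu G x v v' = uu G x p q := by
    intro p hp q hq v hv v' hv' e1 e2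
    rw [← uu_eq hG (h2 hp) hv e1, uu_symm hG (h2 hp) hv', ← uu_eq hG (h2 hq) hv' e2,
      uu_symm hG (h2 hp) (h2 hq)]
  refine ⟨insert x (O.biUnion fun p => (far G x).filter fun v => uu G x p v = 4),
    isCo_insert hG (biUnion_subset.2 fun _ _ => filter_subset _ _) ?_ ?_, mem_insert_self _ _,
    mem_insert_of_mem (mem_biUnion.2 ⟨a, h1, mem_filter.2 ⟨ha, uu_self hG ha⟩⟩)⟩
  · rw [card_biUnion, sum_congr rfl fun p hp => cnt4 hG (h2 hp), sum_const, h3]
    · rfl
    · intro p hp q hq hpq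
      refine disjoint_left.2 fun v hv hv' => ?_
      obtain ⟨v1, v2⟩ := mem_filter.1 hv
      have := hm p hp q hq v v1 v v1 v2 (mem_filter.1 hv').2
      rw [uu_self hG v1, h4 p hp q hq hpq] at this
      omega
  · intro v hv v' hv'
    obtain ⟨p, hp, hv⟩ := mem_biUnion.1 hv
    obtain ⟨q, hq, hv'⟩ := mem_biUnion.1 hv'
    obtain ⟨v1, v2⟩ := mem_filter.1 hv
    obtain ⟨v3, v4⟩ := mem_filter.1 hv'
    rw [hm p hp q hq v v1 v' v3 v2 v4]
    by_cases hpq : p = q
    · rw [hpq, uu_self hG (h2 hq)]; omega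
    · rw [h4 p hp q hq hpq]; omega

theorem co_sub {C : Finset V} (hC : IsCo G C) (hx : x ∈ C) : C.erase x ⊆ far G x := fun v hv =>
  mem_far.2 ⟨(mem_erase.1 hv).1, hC.2 x hx v (mem_erase.1 hv).2⟩

/-- counts of the three values on a coclique -/
theorem co_count {C : Finset V} (hC : IsCo G C) (hx : x ∈ C) (hw : w ∈ far G x) :
    (((C.erase x).filter fun v => uu G x w v = 4).card : ℤ) -
      ((C.erase x).filter fun v => uu G x w v = -2).card = if w ∈ C then 4 else -12 := by
  have h1 := sum_co hG hC hx hw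
  rw [← add_sum_erase _ _ hx, uu_out hG hw (fun h => (mem_far.1 h).1 rfl), zero_add] at h1
  have h2 : ∑ v ∈ C.erase x, uu G x w v = ∑ v ∈ C.erase x, (1 + 3 * (if uu G x w v = 4 then 1 else 0) -
      3 * (if uu G x w v = -2 then 1 else 0)) := by
    refine sum_congr rfl fun v hv => ?_
    rcases uu_cases hG hw (co_sub hG hC hx hv) with h | h | h <;> simp [h]
  rw [h2] at h1
  simp only [sum_add_distrib, sum_sub_distrib, ← mul_sum, sum_const, card_erase_of_mem hx,
    hC.1] at h1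
  rw [card_filter, card_filter]
  push_cast
  split_ifs at h1 ⊢ <;> simp only [nsmul_eq_mul] at h1 <;> push_cast at h1 <;> omega

theorem co_in {C : Finset V} (hC : IsCo G C) (hx : x ∈ C) (hw : w ∈ far G x) (hwC : w ∈ C) :
    (∀ v ∈ far G x, uu G x w v = 4 → v ∈ C) ∧ ∀ v ∈ C.erase x, uu G x w v ≠ -2 := by
  have h1 := co_count hG hC hx hw
  rw [if_pos hwC] at h1
  have hs : ((C.erase x).filter fun v => uu G x w v = 4) ⊆
      (far G x).filter fun v => uu G x w v = 4 := filter_subset_filter _ (co_sub hG hC hx)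
  have h2 := card_le_card hs
  rw [cnt4 hG hw] at h2
  constructor
  · have h3 := eq_of_subset_of_card_le hs (by rw [cnt4 hG hw]; omega)
    intro v hv h
    have : v ∈ (C.erase x).filter fun v => uu G x w v = 4 := h3 ▸ mem_filter.2 ⟨hv, h⟩
    exact mem_of_mem_erase (mem_filter.1 this).1
  · have h3 : ((C.erase x).filter fun v => uu G x w v = -2).card = 0 := by omega
    intro v hv h
    exact notMem_empty v (card_eq_zero.1 h3 ▸ mem_filter.2 ⟨hv, h⟩)

theorem co_out {C : Finset V} (hC : IsCo G C) (hx : x ∈ C) (ha : a ∈ far G x) (haC : a ∈ C)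
    (hw : w ∈ far G x) (hwC : w ∉ C) (h : uu G x a w = 1) :
    ∀ v ∈ far G x, uu G x a v = 1 → uu G x w v = -2 → v ∈ C := by
  have h1 := co_count hG hC hx hw
  rw [if_neg hwC] at h1
  have hs : ((C.erase x).filter fun v => uu G x w v = -2) ⊆
      (far G x).filter fun v => uu G x a v = 1 ∧ uu G x w v = -2 := by
    intro v hv
    obtain ⟨v1, v2⟩ := mem_filter.1 hv
    have v3 := co_sub hG hC hx v1
    refine mem_filter.2 ⟨v3, ?_, v2⟩
    have := (co_in hG hC hx ha haC).2 v v1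
    rcases pair_cases hG ha hw v3 with ⟨h1, h2⟩ | ⟨h1, h2⟩ | ⟨h1 | h1, h2 | h2⟩ <;> omega
  have h3 := eq_of_subset_of_card_le hs (by rw [cnt12 hG ha hw h]; omega)
  intro v hv e1 e2
  have : v ∈ (C.erase x).filter fun v => uu G x w v = -2 := h3 ▸ mem_filter.2 ⟨hv, e1, e2⟩
  exact mem_of_mem_erase (mem_filter.1 this).1

theorem co_eq {C : Finset V} (hC : IsCo G C) (hx : x ∈ C) (ha : a ∈ far G x) (haC : a ∈ C) :
    C = insert x (((far G x).filter fun v => uu G x a v = 4) ∪
      ((far G x).filter fun v => uu G x a v = 1) ∩ C) := by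
  ext v
  simp only [mem_insert, mem_union, mem_inter, mem_filter]
  constructor
  · intro hv
    by_cases h : v = x
    · exact Or.inl h
    have v1 := mem_erase.2 ⟨h, hv⟩
    have v3 := co_sub hG hC hx v1
    have := (co_in hG hC hx ha haC).2 v v1
    rcases uu_cases hG ha v3 with h' | h' | h'
    · exact Or.inr (Or.inl ⟨v3, h'⟩)
    · exact Or.inr (Or.inr ⟨⟨v3, h'⟩, hv⟩)
    · exact absurd h' this
  · rintro (rfl | ⟨h1, h2⟩ | ⟨-, h⟩)
    · exact hx
    · exact (co_in hG hC hx ha haC).1 v h1 h2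
    · exact h

theorem co_card {C : Finset V} (hC : IsCo G C) (hx : x ∈ C) (ha : a ∈ far G x) (haC : a ∈ C) :
    (((far G x).filter fun v => uu G x a v = 1) ∩ C).card = 16 := by
  have h1 := congrArg card (co_eq hG hC hx ha haC)
  rw [hC.1, card_insert_of_notMem (by simp [mem_far]), card_union_of_disjoint, cnt4 hG ha] at h1
  · omega
  · refine disjoint_left.2 fun v h1 h2 => ?_
    have e1 := (mem_filter.1 h1).2
    have e2 := (mem_filter.1 (mem_inter.1 h2).1).2
    omega

theorem co_unique {C C' : Finset V} (hC : IsCo G C) (hx : x ∈ C) (ha : a ∈ far G x) (haC : a ∈ C)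
    (hC' : IsCo G C') (hx' : x ∈ C') (haC' : a ∈ C') (hw : w ∈ far G x) (h : uu G x a w = 1)
    (hwC : w ∈ C) (hwC' : w ∈ C') : C = C' := by
  refine eq_of_subset_of_card_le (fun p hp => ?_) (by rw [hC.1, hC'.1])
  by_contra hp'
  have hpx : p ≠ x := fun e => hp' (e ▸ hx')
  have p1 := mem_erase.2 ⟨hpx, hp⟩
  have p3 := co_sub hG hC hx p1
  have hap : uu G x a p = 1 := by
    rcases uu_cases hG ha p3 with h' | h' | h'
    · exact absurd ((co_in hG hC' hx' ha haC').1 p p3 h') hp'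
    · exact h'
    · exact absurd h' ((co_in hG hC hx ha haC).2 p p1)
  have e1 := co_card hG hC hx ha haC
  have e2 := cnt12 hG ha p3 hap
  have e3 := cnt12 hG ha hw h
  have e4 := cnt1 hG ha
  have nx : ∀ v ∈ far G x, ∀ D : Finset V, v ∈ D → v ∈ D.erase x := fun v hv D hD =>
    mem_erase.2 ⟨(mem_far.1 hv).1, hD⟩
  have d1 : Disjoint (((far G x).filter fun v => uu G x a v = 1) ∩ C)
      ((far G x).filter fun v => uu G x a v = 1 ∧ uu G x p v = -2) := by
    refine disjoint_left.2 fun v h1 h2 => ?_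
    obtain ⟨v1, -, v2⟩ := mem_filter.1 h2
    exact (co_in hG hC hx p3 hp).2 v (nx v v1 _ (mem_inter.1 h1).2) v2
  have d2 : Disjoint ((((far G x).filter fun v => uu G x a v = 1) ∩ C) ∪
      ((far G x).filter fun v => uu G x a v = 1 ∧ uu G x p v = -2))
      ((far G x).filter fun v => uu G x a v = 1 ∧ uu G x w v = -2) := by
    refine disjoint_left.2 fun v h1 h2 => ?_
    obtain ⟨v1, -, v2⟩ := mem_filter.1 h2
    rcases mem_union.1 h1 with h1 | h1
    · exact (co_in hG hC hx hw hwC).2 v (nx v v1 _ (mem_inter.1 h1).2) v2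
    · obtain ⟨-, v3, v4⟩ := mem_filter.1 h1
      exact (co_in hG hC' hx' hw hwC').2 v
        (nx v v1 _ (co_out hG hC' hx' ha haC' p3 hp' hap v v1 v3 v4)) v2
  have hs : ((((far G x).filter fun v => uu G x a v = 1) ∩ C) ∪
      ((far G x).filter fun v => uu G x a v = 1 ∧ uu G x p v = -2)) ∪
      ((far G x).filter fun v => uu G x a v = 1 ∧ uu G x w v = -2) ⊆
      (far G x).filter fun v => uu G x a v = 1 := by
    refine union_subset (union_subset inter_subset_left ?_) ?_ <;>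
      exact fun v hv => mem_filter.2 ⟨(mem_filter.1 hv).1, (mem_filter.1 hv).2.1⟩
  have := card_le_card hs
  rw [card_union_of_disjoint d2, card_union_of_disjoint d1] at this
  omega

open Classical in
theorem two_co (ha : a ∈ far G x) :
    (univ.filter fun C : Finset V => IsCo G C ∧ x ∈ C ∧ a ∈ C).card = 2 := by
  obtain ⟨C, hC, hx, haC⟩ := exists_co hG ha
  have e1 := co_card hG hC hx ha haC
  have e4 := cnt1 hG ha
  have e5 := card_sdiff_add_card_inter ((far G x).filter fun v => uu G x a v = 1) C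
  have hC' : IsCo G (insert x (((far G x).filter fun v => uu G x a v = 4) ∪
      ((far G x).filter fun v => uu G x a v = 1) \ C)) := by
    refine isCo_insert hG (union_subset (filter_subset _ _)
      (sdiff_subset.trans (filter_subset _ _))) ?_ ?_
    · rw [card_union_of_disjoint, cnt4 hG ha]
      · omega
      · refine disjoint_left.2 fun v h1 h2 => ?_
        have e1 := (mem_filter.1 h1).2
        have e2 := (mem_filter.1 (mem_sdiff.1 h2).1).2
        omega
    · intro p hp q hq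
      simp only [mem_union, mem_sdiff, mem_filter] at hp hq
      rcases hp with ⟨p1, p2⟩ | ⟨⟨p1, p2⟩, p3⟩
      · rw [← uu_eq hG ha p1 p2]
        rcases hq with ⟨q1, q2⟩ | ⟨⟨q1, q2⟩, q3⟩ <;> omega
      · rcases hq with ⟨q1, q2⟩ | ⟨⟨q1, q2⟩, q3⟩
        · rw [uu_symm hG p1 q1, ← uu_eq hG ha q1 q2]; omega
        · exact fun h => q3 (co_out hG hC hx ha haC p1 p3 p2 q q1 q2 h)
  set C' := insert x (((far G x).filter fun v => uu G x a v = 4) ∪
      ((far G x).filter fun v => uu G x a v = 1) \ C) with hC'def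
  have hx' : x ∈ C' := mem_insert_self _ _
  have haC' : a ∈ C' := mem_insert_of_mem (mem_union_left _ (mem_filter.2 ⟨ha, uu_self hG ha⟩))
  have hm : ∀ v ∈ far G x, uu G x a v = 1 → v ∉ C → v ∈ C' := fun v h1 h2 h3 =>
    mem_insert_of_mem (mem_union_right _ (mem_sdiff.2 ⟨mem_filter.2 ⟨h1, h2⟩, h3⟩))
  refine card_eq_two.2 ⟨C, C', ?_, ?_⟩
  · intro e
    obtain ⟨v, hv⟩ : (((far G x).filter fun v => uu G x a v = 1) \ C).Nonempty :=
      card_pos.1 (by omega)
    obtain ⟨v1, v2⟩ := mem_sdiff.1 hv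
    exact v2 (e ▸ hm v (mem_filter.1 v1).1 (mem_filter.1 v1).2 v2)
  · ext D
    simp only [mem_filter, mem_univ, true_and, mem_insert, mem_singleton]
    constructor
    · rintro ⟨hD, hxD, haD⟩
      obtain ⟨v, hv⟩ : (((far G x).filter fun v => uu G x a v = 1) ∩ D).Nonempty :=
        card_pos.1 (by rw [co_card hG hD hxD ha haD]; omega)
      obtain ⟨v1, v2⟩ := mem_inter.1 hv
      obtain ⟨v3, v4⟩ := mem_filter.1 v1
      by_cases h : v ∈ C
      · exact Or.inl (co_unique hG hD hxD ha haD hC hx haC v3 v4 v2 h)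
      · exact Or.inr (co_unique hG hD hxD ha haD hC' hx' haC' v3 v4 v2 (hm v v3 v4 h))
    · rintro (rfl | rfl)
      · exact ⟨hC, hx, haC⟩
      · exact ⟨hC', hx', haC'⟩

end H05.Sr
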