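import Mathlib
import Cfsg.Agent.H05.Sr2

/-!
The strongly regular graph with parameters (77, 16, 0, 4), part 3: it is the block graph of an
S(3, 6, 22) (`H05.Sr.srg77_block`); `H05.Sr.block_iso`.
-/

set_option autoImplicit false

open Finset H14 Cfsg

namespace H05.Sr

universe u

theorem srg77_block {V : Type u} [Fintype V] {G : SimpleGraph V} [DecidableRel G.Adj]
    (hG : G.IsSRGWith 77 16 0 4) :
    ∃ (P : Type u) (_ : Fintype P) (B : Set (Finset P)), Fintype.card P = 22 ∧
      IsSteinerSystem 3 6 B ∧ Nonempty (G ≃g blockGraph B) := by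
  classical
  let P := {C : Finset V // IsCo G C}
  let β : V → Finset P := fun x => univ.filter fun C => x ∈ C.1
  have m : ∀ x C, C ∈ β x ↔ x ∈ C.1 := fun x C => by simp [β]
  have c2 : ∀ x, ∀ z ∈ far G x, (β x ∩ β z).card = 2 := by
    intro x z hz
    rw [← two_co hG hz, ← card_map (Function.Embedding.subtype _)]
    congr 1; ext C
    simp only [mem_map, mem_inter, m, Function.Embedding.coe_subtype, mem_filter, mem_univ,
      true_and]
    constructor
    · rintro ⟨D, ⟨h1, h2⟩, rfl⟩; exact ⟨D.2, h1, h2⟩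
    · rintro ⟨h1, h2, h3⟩; exact ⟨⟨C, h1⟩, ⟨h2, h3⟩, rfl⟩
  have c0 : ∀ w v, G.Adj w v → Disjoint (β w) (β v) := fun w v h => disjoint_left.2 fun C h1 h2 =>
    C.2.2 w ((m _ _).1 h1) v ((m _ _).1 h2) h
  have c1 : ∀ x, (β x).card = 6 := by
    intro x
    have h1 := sum_card_inter (far G x) β (β x)
    rw [sum_congr rfl (c2 x), sum_const, card_far hG, sum_congr rfl (g := fun _ => 20), sum_const]
      at h1
    · simp only [smul_eq_mul] at h1; omega
    · intro C hC
      have hx := (m _ _).1 hC
      have : (far G x).filter (fun w => C ∈ β w) = C.1.erase x := by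
        ext v
        simp only [mem_filter, m]
        exact ⟨fun h => mem_erase.2 ⟨(mem_far.1 h.1).1, h.2⟩,
          fun h => ⟨co_sub hG C.2 hx h, mem_of_mem_erase h⟩⟩
      rw [this, card_erase_of_mem hx, C.2.1]
  have hc : Fintype.card P = 22 := by
    have h1 := sum_card_inter (univ : Finset V) β univ
    simp only [univ_inter, c1, sum_const, card_univ, hG.card] at h1
    rw [sum_congr rfl (g := fun _ => 21), sum_const, card_univ] at h1
    · simp only [smul_eq_mul] at h1; omega
    · intro C _
      rw [← C.2.1]; congr 1; ext v; simp [m]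
  have c3 : ∀ w v, 3 ≤ (β w ∩ β v).card → w = v := fun w v h => by
    by_contra c
    by_cases d : G.Adj w v
    · rw [disjoint_iff_inter_eq_empty.1 (c0 w v d)] at h; cases h
    · rw [c2 w v (mem_far.2 ⟨Ne.symm c, d⟩)] at h; omega
  have inj : Function.Injective β := fun w v h => c3 w v (by rw [← h, inter_self, c1]; omega)
  have hB : IsSteinerSystem 3 6 (Set.range β) := steiner_of_count
    (by rintro _ ⟨w, rfl⟩; exact c1 w)
    (by rintro _ ⟨w, rfl⟩ _ ⟨v, rfl⟩ h; rw [c3 w v h])
    (by rw [Set.ncard_range_of_injective inj, Nat.card_eq_fintype_card, hG.card, hc]; rfl)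
  refine ⟨P, inferInstance, Set.range β, hc, hB, ⟨⟨Equiv.ofInjective β inj, ?_⟩⟩⟩
  intro w v
  rw [blockGraph_adj hB]
  simp only [Equiv.ofInjective_apply]
  refine ⟨fun h => by_contra fun d => ?_, c0 _ _⟩
  have h := card_eq_zero.2 (disjoint_iff_inter_eq_empty.1 h)
  by_cases e : v = w
  · rw [e, inter_self, c1] at h; omega
  · rw [c2 w v (mem_far.2 ⟨e, d⟩)] at h; omega

theorem block_iso {α β : Type*} [Fintype α] [DecidableEq α] [Fintype β] [DecidableEq β]
    {B : Set (Finset α)} {B' : Set (Finset β)} (hB : IsSteinerSystem 3 6 B)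
    (hB' : IsSteinerSystem 3 6 B') (h : SetSystemIso B B') :
    Nonempty (blockGraph B ≃g blockGraph B') := by
  obtain ⟨e, rfl⟩ := h
  refine ⟨⟨e.finsetCongr.subtypeEquiv fun b => ?_, ?_⟩⟩
  · rw [Equiv.finsetCongr_apply, map_eq_image]
    exact ((image_injective e.injective).mem_set_image).symm
  · intro b c
    rw [blockGraph_adj hB, blockGraph_adj hB']
    exact disjoint_map e.toEmbedding

end H05.Sr
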