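import Cfsg.Agent.L.Fz0
import Cfsg.Agent.H05.TZa
import Cfsg.Agent.H14.MSimple
import Cfsg.Agent.H14.RK2

/-! Part Z1 of the Janko-four 3-local cluster, with unbundled hypotheses. -/

set_option autoImplicit false
open Cfsg Subgroup

namespace H05.TZ
universe u

theorem z1' {G : Type u} [Group G] {A N B : Subgroup G} {D : Set G} {z δ : G}
    (θ : ↥(centralizer {z} ⊓ centralizer {δ} : Subgroup G) →* Spor.M22) (h : L.Fz.Cf A N B D z)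
    (δz : δ ∈ centralizer ({z} : Set G))
    (tr : ∀ x ∈ A ⊓ centralizer {δ}, x ≠ 1 → x ≠ z → ∀ y ∈ A ⊓ centralizer {δ}, y ≠ 1 → y ≠ z →
      ∃ c ∈ N, c ∈ centralizer ({z} : Set G) ∧ c ∈ centralizer ({δ} : Set G) ∧
        (c * x * c⁻¹ = y ∨ c * x * c⁻¹ = y * z))
    (ex : ∀ x ∈ A ⊓ centralizer {δ}, x ≠ 1 → x ≠ z → (x ∈ D ↔ x * z ∉ D))
    (p1 : ∃ s ∈ D, s ∈ centralizer ({δ} : Set G) ∧ ∃ t ∈ D, t ∈ centralizer ({δ} : Set G) ∧ s ≠ t ∧ s * t ∉ D)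
    (p2 : ∃ s ∈ D, s ∈ centralizer ({δ} : Set G) ∧ ∃ t ∈ D, t ∈ centralizer ({δ} : Set G) ∧ s * t ∈ D)
    (su : Function.Surjective θ) (ker : ∀ x, θ x = 1 → ∃ i j : ℕ, (x : G) = z ^ i * δ ^ j)
    (dc : δ ∈ ⁅(centralizer {z} ⊓ centralizer {δ} : Subgroup G), (centralizer {z} ⊓ centralizer {δ} : Subgroup G)⁆) :
    z ∈ ⁅(centralizer {z} ⊓ centralizer {δ} : Subgroup G), (centralizer {z} ⊓ centralizer {δ} : Subgroup G)⁆ := by
  have pf : commutator Spor.M22 = ⊤ := by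
    have := H14.simple_M22
    exact H14.RK.perfect_of_simple (by rw [H14.card_M22]; norm_num)
  have zA : z ∈ A := h.BA h.zB
  have ab : ∀ x ∈ A, ∀ y ∈ A, x * y = y * x := fun x hx y hy => by
    have e := h.sq _ (A.mul_mem hx hy)
    have ex := h.sq x hx
    have ey := h.sq y hy
    calc x * y = x * (x * y * (x * y)) * y := by rw [e, mul_one]
      _ = (x * x) * (y * x) * (y * y) := by simp only [mul_assoc]
      _ = y * x := by rw [ex, ey, one_mul, mul_one]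
  have zδ : z ∈ centralizer ({δ} : Set G) := by
    rw [mem_centralizer_singleton_iff] at δz ⊢
    exact δz.symm
  refine core (W := A ⊓ centralizer {δ}) (D := D) pf θ su ker dc ?_ ⟨zA, zδ⟩ (fun x hx => h.sq x hx.1)
    (fun e => (h.DA 1 e).2 rfl) h.zD ?_ ex ?_ ?_
  · exact fun x hx => ⟨mem_centralizer_singleton_iff.2 (ab x hx.1 z zA), hx.2⟩
  · intro x hx xD y hy yD yz
    obtain ⟨c, cN, cz, cδ, e⟩ := tr x hx (h.DA x xD).2 (fun e => h.zD (e ▸ xD)) y hy (h.DA y yD).2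
      (fun e => h.zD (e ▸ yD))
    exact ⟨c, ⟨cz, cδ⟩, e.resolve_right fun e => yz (e ▸ h.Dc c cN x xD)⟩
  · obtain ⟨s, sD, sδ, t, tD, tδ, e⟩ := p1
    exact ⟨s, sD, ⟨(h.DA s sD).1, sδ⟩, t, tD, ⟨(h.DA t tD).1, tδ⟩, e⟩
  · obtain ⟨s, sD, sδ, t, tD, tδ, e⟩ := p2
    exact ⟨s, sD, ⟨(h.DA s sD).1, sδ⟩, t, tD, ⟨(h.DA t tD).1, tδ⟩, e⟩

end H05.TZ
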