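import Mathlib

/-! Interface for S4504 (faithful character of degree `(p-1)/2`): the statements of the parts. -/

set_option autoImplicit false

open Module

namespace H05.Tu

universe u

/-- the algebraic closure of the prime field -/
abbrev K (p : ℕ) [Fact p.Prime] := AlgebraicClosure (ZMod p)

/-- `x` generates a Sylow subgroup of order `p` -/
structure Sy {G : Type u} [Group G] (p : ℕ) (x : G) : Prop where
  o : orderOf x = p
  sq : ¬ p ^ 2 ∣ Nat.card G

/-- R : reduction modulo `p`. -/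
def RStmt : Prop := ∀ (G : Type u) [Group G] [Finite G] (p : ℕ) [Fact p.Prime] (n : ℕ)
  (ρ : Representation ℂ G (Fin n → ℂ)), Function.Injective ρ →
  ∃ σ : Representation (K p) G (Fin n → K p), IsPGroup p (MonoidHom.ker σ)

/-- I : an irreducible section on which `x` acts non-trivially. -/
def IStmt : Prop := ∀ (G : Type u) [Group G] [Finite G] (p : ℕ) [Fact p.Prime] (x : G), Sy p x →
  (∀ H : Subgroup G, H.Normal → Nat.card H ≠ p) → ∀ (n : ℕ) (σ : Representation (K p) G (Fin n → K p)),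
  IsPGroup p (MonoidHom.ker σ) → ∃ (m : ℕ) (τ : Representation (K p) G (Fin m → K p)), m ≤ n ∧ τ x ≠ 1 ∧
    ∀ U : Submodule (K p) (Fin m → K p), (∀ g, ∀ v ∈ U, τ g v ∈ U) → U = ⊥ ∨ U = ⊤

/-- M : Mackey formula for the trace from `⟨x⟩` to `G`. -/
def MStmt : Prop := ∀ (G : Type u) [Group G] [Finite G] (p : ℕ) [Fact p.Prime] (x : G), Sy p x →
  ∀ (M : Type) [AddCommGroup M] (ρ : G →* AddMonoid.End M) (m : M), ρ x m = m →
  ∃ (s r : Finset G) (u : M), (∀ n ∈ s, n ∈ Subgroup.normalizer (Subgroup.zpowers x : Set G)) ∧ ¬ p ∣ s.card ∧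
    (∀ g, ρ g (∑ c ∈ r, ρ c m) = ∑ c ∈ r, ρ c m) ∧
    ∑ c ∈ r, ρ c m = ∑ n ∈ s, ρ n m + ∑ i ∈ Finset.range p, ρ (x ^ i) u

/-- `ρ x - 1` -/
abbrev X {G : Type u} [Group G] {F W : Type} [Field F] [AddCommGroup W] [Module F W] (ρ : Representation F G W) (x : G) :
    Module.End F W := ρ x - 1

/-- the data that produce a three-dimensional orthogonal section -/
structure Dat {G : Type u} [Group G] (p : ℕ) [Fact p.Prime] (x : G) {W : Type} [AddCommGroup W] [Module (K p) W]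
    (ρ : Representation (K p) G W) (B : LinearMap.BilinForm (K p) W) (a : W) : Prop where
  sy : ∀ u v, B u v = B v u
  nd : ∀ u, (∀ v, B u v = 0) → u = 0
  inv : ∀ g u v, B (ρ g u) (ρ g v) = B u v
  nil : X ρ x ^ (p - 1) = 0
  a3 : X ρ x (X ρ x (X ρ x a)) = 0
  ev : ∀ n ∈ Subgroup.normalizer (Subgroup.zpowers x : Set G), ∃ c : K p, ρ n (X ρ x (X ρ x a)) = c • X ρ x (X ρ x a)
  ne : B (X ρ x (X ρ x a)) a ≠ 0
  ce : ∀ z ∈ Subgroup.center G, ρ z = 1

/-- S : the data exist in `End V`. -/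
def SStmt : Prop := ∀ (G : Type u) [Group G] [Finite G] (p : ℕ) [Fact p.Prime] (x : G), Sy p x →
  ∀ (m : ℕ) (τ : Representation (K p) G (Fin m → K p)), 2 * m + 1 ≤ p → τ x ≠ 1 →
  (∀ U : Submodule (K p) (Fin m → K p), (∀ g, ∀ v ∈ U, τ g v ∈ U) → U = ⊥ ∨ U = ⊤) →
  ∃ (W : Type) (_ : AddCommGroup W) (_ : Module (K p) W) (_ : FiniteDimensional (K p) W)
    (ρ : Representation (K p) G W) (B : LinearMap.BilinForm (K p) W) (a : W), Dat p x ρ B a

/-- a three-dimensional orthogonal representation -/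
def O3 {G : Type u} [Group G] (p : ℕ) [Fact p.Prime] (x : G) : Prop :=
  ∃ (A : Type) (_ : AddCommGroup A) (_ : Module (K p) A) (_ : FiniteDimensional (K p) A)
    (τ : Representation (K p) G A) (B : LinearMap.BilinForm (K p) A), finrank (K p) A = 3 ∧ (∀ u v, B u v = B v u) ∧
    (∀ u, (∀ v, B u v = 0) → u = 0) ∧ (∀ g u v, B (τ g u) (τ g v) = B u v) ∧ τ x ≠ 1 ∧ ∀ z ∈ Subgroup.center G, τ z = 1

/-- A : the Green correspondent of the block of size three. -/
def AStmt : Prop := ∀ (G : Type u) [Group G] [Finite G] (p : ℕ) [Fact p.Prime] (x : G), Sy p x → 5 ≤ p →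
  ∀ (W : Type) [AddCommGroup W] [Module (K p) W] [FiniteDimensional (K p) W]
    (ρ : Representation (K p) G W) (B : LinearMap.BilinForm (K p) W) (a : W), Dat p x ρ B a → O3 p x

/-- O : `SO₃ = PSL₂` over the algebraic closure. -/
def OStmt : Prop := ∀ (G : Type u) [Group G] [Finite G] (p : ℕ) [Fact p.Prime] (x : G), Sy p x → 5 ≤ p → O3 p x →
  ∃ π : G →* Matrix.ProjectiveSpecialLinearGroup (Fin 2) (K p), π x ≠ 1 ∧ Subgroup.center G ≤ π.ker

/-- D : Dickson's theorem. -/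
def DStmt : Prop := ∀ (H : Type u) [Group H] [Finite H] (p : ℕ) [Fact p.Prime] (x : H), Sy p x → 5 ≤ p →
  ∀ π : H →* Matrix.ProjectiveSpecialLinearGroup (Fin 2) (K p), Function.Injective π →
  (Subgroup.zpowers x).Normal ∨ Nonempty (H ≃* Matrix.ProjectiveSpecialLinearGroup (Fin 2) (ZMod p)) ∨
    Nonempty (H ≃* Matrix.ProjGenLinGroup (Fin 2) (ZMod p))

/-- Z : normal `p'`-subgroups are central. -/
def ZStmt : Prop := ∀ (G : Type u) [Group G] [Finite G] (p : ℕ) [Fact p.Prime] (x : G), Sy p x → 5 ≤ p →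
  (∀ H : Subgroup G, H.Normal → Nat.card H ≠ p) → ∀ (n : ℕ) (ρ : Representation ℂ G (Fin n → ℂ)),
  Function.Injective ρ → 2 * n + 1 = p → ∀ N : Subgroup G, N.Normal → ¬ p ∣ Nat.card N → N ≤ Subgroup.center G

/-- E : the projective general linear group does not occur. -/
def EStmt : Prop := ∀ (G : Type u) [Group G] [Finite G] (p : ℕ) [Fact p.Prime] (x : G), Sy p x → 5 ≤ p →
  ∀ (n : ℕ) (ρ : Representation ℂ G (Fin n → ℂ)), Function.Injective ρ → 2 * n + 1 = p →
  ¬ p ∣ Nat.card (Subgroup.center G) → ¬ Nonempty (G ⧸ Subgroup.center G ≃* Matrix.ProjGenLinGroup (Fin 2) (ZMod p))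

end H05.Tu
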