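import Cfsg.Agent.H05.Tu0

/-! Part A of S4504: a three-dimensional orthogonal section (Green correspondence by hand). -/

set_option autoImplicit false

open Module

namespace H05.Tu

universe u

variable {G : Type u} [Group G] {F W : Type} [Field F] [AddCommGroup W] [Module F W]

/-- conjugation on endomorphisms -/
def cj (ρ : Representation F G W) : G →* AddMonoid.End (End F W) where
  toFun g := (AddMonoidHom.mulLeft (ρ g)).comp (AddMonoidHom.mulRight (ρ g⁻¹))
  map_one' := AddMonoidHom.ext fun f => by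
    change ρ 1 * (f * ρ 1⁻¹) = f
    simp
  map_mul' g h := AddMonoidHom.ext fun f => by
    change ρ (g * h) * (f * ρ (g * h)⁻¹) = ρ g * (ρ h * (f * ρ h⁻¹) * ρ g⁻¹)
    simp [mul_assoc]

theorem cj_apply (ρ : Representation F G W) (g : G) (f : End F W) (u : W) : cj ρ g f u = ρ g (f (ρ g⁻¹ u)) := rfl

theorem geo (p : ℕ) [Fact p.Prime] [CharP F p] (T : End F W) : ∑ i ∈ Finset.range p, T ^ i = (T - 1) ^ (p - 1) := by
  have : ∑ i ∈ Finset.range p, (Polynomial.X : Polynomial F) ^ i = (Polynomial.X - 1) ^ (p - 1) :=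
    mul_right_cancel₀ (Polynomial.X_sub_C_ne_zero (1 : F)) (by
      rw [Polynomial.C_1, geom_sum_mul, ← pow_succ, Nat.sub_add_cancel (Fact.out : p.Prime).one_le, sub_pow_char, one_pow])
  simpa [map_sum] using congrArg (Polynomial.aeval T) this

theorem nrm [Finite G] (ρ : Representation F G W) {x n : G} (hn : n ∈ Subgroup.normalizer (Subgroup.zpowers x : Set G)) :
    ∃ q : End F W, Commute q (X ρ x) ∧ ρ n * X ρ x = X ρ x * q * ρ n := by
  have h1 : n * x * n⁻¹ ∈ Subgroup.zpowers x := (Subgroup.mem_set_normalizer_iff.1 hn x).1 (Subgroup.mem_zpowers x)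
  obtain ⟨j, hj⟩ := (mem_powers_iff_mem_zpowers.2 h1 : n * x * n⁻¹ ∈ Submonoid.powers x)
  refine ⟨∑ i ∈ Finset.range j, ρ x ^ i, Commute.sum_left _ _ _ fun i _ => ((Commute.refl _).sub_right (Commute.one_right _)).pow_left _, ?_⟩
  rw [mul_geom_sum, ← map_pow, show x ^ j = _ from hj, mul_sub, sub_mul, ← map_mul, ← map_mul]; simp

theorem a (hM : MStmt.{u}) : AStmt.{u} := by
  intro G _ _ p _ x hx h5 W _ _ _ ρ B a d
  classical
  set Y := X ρ x with hY
  set l := Y (Y a) with hl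
  have rx : ∀ u, ρ x u = u + Y u := fun u => by simp [hY]
  have yl : Y l = 0 := d.a3
  have l0 : l ≠ 0 := fun h => d.ne (by rw [← hl, h]; simp)
  have iv : ∀ g u v, B (ρ g u) v = B u (ρ g⁻¹ v) := fun g u v => by
    rw [← d.inv g u (ρ g⁻¹ v), ← End.mul_apply, ← map_mul, mul_inv_cancel, map_one, End.one_apply]
  have byl : ∀ w, B (Y w) l = 0 := fun w => by
    have := d.inv x w l
    rwa [rx, rx, yl, add_zero, map_add, LinearMap.add_apply, add_eq_left] at this
  let E : W → W → End (K p) W := fun b c => (B.flip b).smulRight c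
  have hE : ∀ b c u, E b c u = B u b • c := fun b c u => rfl
  let e0 : End (K p) W := (2 : K p) • E l a + (2 : K p) • E a l - (2 : K p) • E (Y a) (Y a) + E l (Y a) + E (Y a) l
  have e1 : ∀ u, e0 u = (2 * B u l) • a + (2 * B u a) • l - (2 * B u (Y a)) • Y a + B u l • Y a + B u (Y a) • l := fun u => by
    simp [e0, hE, mul_smul]
  have e2 : ∀ u v, B (e0 u) v = B u (e0 v) := fun u v => by
    rw [d.sy u, e1, e1]; simp only [map_add, map_sub, map_smul, LinearMap.add_apply, LinearMap.sub_apply, LinearMap.smul_apply, smul_eq_mul]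
    rw [d.sy a v, d.sy l v, d.sy (Y a) v, d.sy a u, d.sy l u, d.sy (Y a) u]; ring
  have e3 : cj ρ x e0 = e0 := LinearMap.ext fun u => by
    have k : ∀ b, B (ρ x⁻¹ u) b = B u (b + Y b) := fun b => by rw [iv, inv_inv, rx]
    rw [cj_apply, e1, e1, k, k, k]
    simp only [map_add, map_sub, map_smul, rx, ← hl, yl, add_zero]
    module
  obtain ⟨s, r, u0, s1, s2, s3, s4⟩ := hM G p x hx _ (cj ρ) e0 e3
  set φ := ∑ c ∈ r, cj ρ c e0 with hφ
  have f1 : ∀ g u, ρ g (φ u) = φ (ρ g u) := fun g u => by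
    have := LinearMap.congr_fun (s3 g) (ρ g u)
    rwa [cj_apply, ← End.mul_apply (ρ g⁻¹), ← map_mul, inv_mul_cancel, map_one, End.one_apply] at this
  have f2 : ∀ u v, B (φ u) v = B u (φ v) := fun u v => by
    simp only [hφ, LinearMap.sum_apply, map_sum, cj_apply]
    exact Finset.sum_congr rfl fun c _ => by rw [iv, e2, iv, inv_inv]
  choose! c hc using d.ev
  have rY : ∀ n ∈ Subgroup.normalizer (Subgroup.zpowers x : Set G), ∀ w ∈ LinearMap.range Y, ρ n w ∈ LinearMap.range Y := by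
    rintro n hn _ ⟨w, rfl⟩
    obtain ⟨q, -, h⟩ := nrm ρ hn
    exact ⟨q (ρ n w), (LinearMap.congr_fun h w).symm⟩
  let a' : W := ∑ n ∈ s, (2 * c n) • ρ n a
  have g1 : Y (Y (Y a')) = 0 := by
    simp only [a', map_sum, map_smul]
    refine Finset.sum_eq_zero fun n hn => ?_
    obtain ⟨q, q1, h⟩ := nrm ρ (inv_mem (s1 n hn))
    have h2 : ∀ w, Y (ρ n w) = ρ n (q (Y w)) := fun w => by
      have := congrArg (ρ n) (LinearMap.congr_fun h (ρ n w))
      simp only [End.mul_apply] at this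
      rw [← End.mul_apply (ρ n), ← End.mul_apply (ρ n⁻¹) (ρ n), ← map_mul, ← map_mul, mul_inv_cancel, inv_mul_cancel, map_one,
        End.one_apply, End.one_apply] at this
      rw [this]; exact congrArg _ (LinearMap.congr_fun q1.eq w).symm
    have h3 : ∀ w, Y (q w) = q (Y w) := fun w => (LinearMap.congr_fun q1.eq w).symm
    rw [h2, h2, h2, h3, h3, h3, ← hl, yl]; simp
  have g2 : B a' l ≠ 0 := by
    have : B a' l = s.card * (2 * B l a) := by
      simp only [a', map_sum, map_smul, LinearMap.sum_apply, LinearMap.smul_apply, smul_eq_mul]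
      rw [← nsmul_eq_mul, ← Finset.sum_const]
      refine Finset.sum_congr rfl fun n hn => ?_
      rw [d.sy l, ← d.inv n a l, hc n (s1 n hn), map_smul, smul_eq_mul, mul_assoc]
    rw [this]
    refine mul_ne_zero (fun h => s2 ((CharP.cast_eq_zero_iff (K p) p _).1 h)) (mul_ne_zero (fun h => ?_) d.ne)
    have := Nat.le_of_dvd two_pos ((CharP.cast_eq_zero_iff (K p) p 2).1 (by exact_mod_cast h))
    omega
  have g3 : ∀ u, φ u - B u l • a' ∈ LinearMap.range Y := fun u => by
    have z : ∑ i ∈ Finset.range p, ρ (x ^ i)⁻¹ = 0 := by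
      simp only [← inv_pow, map_pow]
      have h : ρ x⁻¹ - 1 = Y * -ρ x⁻¹ := by rw [hY, mul_neg, sub_mul, ← map_mul]; simp
      have h2 : Commute Y (-ρ x⁻¹) := (((Commute.refl x).inv_right.map ρ).sub_left (Commute.one_left _)).neg_right
      rw [geo p, h, h2.mul_pow, d.nil, zero_mul]
    have z2 : ∑ i ∈ Finset.range p, u0 (ρ (x ^ i)⁻¹ u) = 0 := by rw [← map_sum, ← LinearMap.sum_apply, z]; simp
    rw [s4, LinearMap.add_apply, LinearMap.sum_apply, LinearMap.sum_apply, add_sub_right_comm, Finset.smul_sum, ← Finset.sum_sub_distrib]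
    refine add_mem (sum_mem fun n hn => ?_) ?_
    · have : cj ρ n e0 u - B u l • (2 * c n) • ρ n a = ρ n (e0 (ρ n⁻¹ u) - (2 * B (ρ n⁻¹ u) l) • a) := by
        rw [cj_apply, map_sub, map_smul, iv, inv_inv, hc n (s1 n hn), map_smul, smul_smul, smul_eq_mul]; congr 2; ring
      rw [this]
      refine rY n (s1 n hn) _ ⟨(2 * B (ρ n⁻¹ u) a) • Y a - (2 * B (ρ n⁻¹ u) (Y a)) • a + B (ρ n⁻¹ u) l • a + B (ρ n⁻¹ u) (Y a) • Y a, ?_⟩
      rw [e1]; simp only [map_add, map_sub, map_smul, ← hl]; abel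
    · rw [← sub_zero (Finset.sum _ _), ← z2, ← Finset.sum_sub_distrib]
      refine sum_mem fun i _ => ⟨(∑ j ∈ Finset.range i, ρ x ^ j) (u0 (ρ (x ^ i)⁻¹ u)), ?_⟩
      rw [← End.mul_apply, hY, mul_geom_sum, cj_apply, map_pow]; rfl
  obtain ⟨N, hN, N1⟩ := ((LinearMap.eventually_isCompl_ker_pow_range_pow φ).and (Filter.eventually_ge_atTop 1)).exists
  obtain ⟨N, rfl⟩ := Nat.exists_eq_add_of_le' N1
  set ψ := φ ^ (N + 1) with hψ
  have p1 : ∀ g u, ρ g (ψ u) = ψ (ρ g u) := fun g u =>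
    LinearMap.congr_fun ((show Commute (ρ g) φ from LinearMap.ext (f1 g)).pow_right (N + 1)).eq u
  have pY : ∀ u, Y (ψ u) = ψ (Y u) := fun u => by simp [hY, p1]
  have p2 : ∀ u v, B (ψ u) v = B u (ψ v) := by
    rw [hψ]; generalize N + 1 = k
    induction k with
    | zero => simp
    | succ k ih => intro u v; rw [pow_succ, End.mul_apply, ih, f2, ← End.mul_apply φ, ← pow_succ', pow_succ]
  have p3 : ∀ u, ψ u = 0 → B u l = 0 := fun u hu => by
    have : ∀ k, B ((φ ^ k) u) l = B a' l ^ k * B u l := fun k => by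
      induction k with
      | zero => simp
      | succ k ih =>
        obtain ⟨w, hw⟩ := g3 ((φ ^ k) u)
        rw [pow_succ', End.mul_apply, ← sub_add_cancel (φ _) _, ← hw, map_add, LinearMap.add_apply, byl, map_smul, ih]
        simp; ring
    have h := this (N + 1)
    rw [← hψ, hu, map_zero, LinearMap.zero_apply] at h
    exact (mul_eq_zero.1 h.symm).resolve_left (pow_ne_zero _ g2)
  have sp : ∀ u, ∃ k w, ψ k = 0 ∧ u = k + ψ w := fun u => by
    obtain ⟨k, hk, _, ⟨w, rfl⟩, e⟩ := Submodule.mem_sup.1 (hN.sup_eq_top.ge (Submodule.mem_top : u ∈ ⊤))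
    exact ⟨k, w, hk, e.symm⟩
  have nd : ∀ u, (∀ k, ψ k = 0 → B u k = 0) → (∀ w, B u (ψ w) = 0) → u = 0 := fun u h1 h2 => d.nd u fun v => by
    obtain ⟨k, w, hk, rfl⟩ := sp v
    rw [map_add, h1 k hk, h2, add_zero]
  obtain ⟨ak, aw, ak0, ae⟩ := sp a
  have q1 : Y (Y (ψ aw)) = l := by
    have h : l - Y (Y (ψ aw)) = Y (Y ak) := by rw [hl]; nth_rw 1 [ae]; simp
    refine (sub_eq_zero.1 (nd _ (fun k hk => ?_) fun w => ?_)).symm
    · rw [map_sub, LinearMap.sub_apply, d.sy l, p3 k hk, pY, pY, p2, hk]; simp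
    · rw [h, ← p2, ← pY, ← pY, ak0]; simp
  let A := LinearMap.range ψ
  have hA : ∀ g, A ≤ A.comap (ρ g) := by rintro g _ ⟨w, rfl⟩; exact ⟨ρ g w, (p1 g w).symm⟩
  refine ⟨A, inferInstance, inferInstance, inferInstance, ρ.subrepresentation A hA, B.restrict A, le_antisymm ?_ ?_,
    fun u v => d.sy u v, fun u hu => Subtype.ext (nd u (fun k hk => ?_) fun w => hu ⟨_, w, rfl⟩), fun g u v => d.inv g u v,
    fun h => l0 ?_, fun z hz => LinearMap.ext fun u => Subtype.ext (LinearMap.congr_fun (d.ce z hz) u)⟩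
  · let S := Submodule.span (K p) (Set.range ![ψ a', Y (ψ a'), Y (Y (ψ a'))])
    have t1 : ∀ j, (Y ^ j) (ψ a') ∈ S := fun j => by
      rcases j with _ | _ | _ | j
      · exact Submodule.subset_span ⟨0, rfl⟩
      · exact Submodule.subset_span ⟨1, by simp⟩
      · exact Submodule.subset_span ⟨2, by simp [pow_succ]⟩
      · rw [pow_succ, pow_succ, pow_succ]; simp only [End.mul_apply, pY, g1, map_zero]; exact zero_mem _
    have t2 : ∀ j w, ∃ w', ψ w - (Y ^ j) (ψ w') ∈ S := fun j w => by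
      induction j with
      | zero => exact ⟨w, by simp⟩
      | succ j ih =>
        obtain ⟨w1, h1⟩ := ih
        obtain ⟨k, w2, hk, rfl⟩ := sp w1
        obtain ⟨w3, h3⟩ := g3 ((φ ^ N) w2)
        have h4 : ψ (k + ψ w2) = B ((φ ^ N) w2) l • ψ a' + Y (ψ w3) := by
          rw [map_add, hk, zero_add, pY, h3, map_sub, map_smul, add_sub_cancel, ← End.mul_apply φ, ← pow_succ']
        refine ⟨w3, ?_⟩
        rw [h4, map_add, map_smul] at h1
        have := add_mem h1 (S.smul_mem (B ((φ ^ N) w2) l) (t1 j))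
        rw [pow_succ, End.mul_apply]; convert this using 1; abel
    have t3 : A ≤ S := by
      rintro _ ⟨w, rfl⟩
      obtain ⟨w', h⟩ := t2 (p - 1) w
      rwa [d.nil, LinearMap.zero_apply, sub_zero] at h
    exact (Submodule.finrank_mono t3).trans ((finrank_range_le_card _).trans (by simp))
  · let v : Fin 3 → A := ![⟨ψ aw, aw, rfl⟩, ⟨Y (ψ aw), _, (pY _).symm⟩, ⟨l, Y (Y aw), by rw [← pY, ← pY, q1]⟩]
    have : LinearIndependent (K p) v := Fintype.linearIndependent_iff.2 fun t ht => by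
      have h0 : t 0 • ψ aw + t 1 • Y (ψ aw) + t 2 • l = 0 := by
        simpa [v, Fin.sum_univ_three] using congrArg Subtype.val ht
      have h1 := congrArg Y h0
      have h2 := congrArg Y h1
      simp only [map_add, map_smul, q1, yl, map_zero, smul_zero, add_zero, smul_eq_zero, l0, or_false] at h1 h2
      rw [h2, zero_smul, zero_add, smul_eq_zero, or_iff_left l0] at h1
      rw [h2, h1, zero_smul, zero_smul, zero_add, zero_add, smul_eq_zero, or_iff_left l0] at h0
      intro i; fin_cases i <;> assumption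
    simpa using this.fintype_card_le_finrank
  · obtain ⟨_, w, rfl⟩ := u
    exact (p2 w k).trans (by rw [hk, map_zero])
  · have := congrArg Subtype.val (LinearMap.congr_fun h ⟨ψ aw, aw, rfl⟩)
    have h2 : ρ x (ψ aw) = ψ aw := this
    rw [rx, add_eq_left] at h2
    rw [← q1, h2, map_zero]

end H05.Tu
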