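import Cfsg.Agent.H06.J0

/-! Clauses (a), (b), (d), (e) of part Pa of S5569, with unbundled hypotheses. -/

set_option autoImplicit false
open Cfsg BG Subgroup H01.XS Cfsg.Agent.H06.J

namespace H05.YP
universe u

theorem orb {G : Type u} [Group G] (M : Subgroup G) (z : G) :
    Nat.card (M ⊓ centralizer {z} : Subgroup G) * {x | ∃ m ∈ M, m * z * m⁻¹ = x}.ncard = Nat.card M := by
  letI : MulAction M G := MulAction.compHom G (MulAut.conj.comp M.subtype)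
  have a : MulAction.stabilizer M z = (M ⊓ centralizer {z}).subgroupOf M := by
    ext m
    rw [MulAction.mem_stabilizer_iff, mem_subgroupOf, mem_inf, mem_centralizer_singleton_iff]
    exact ⟨fun e => ⟨m.2, mul_inv_eq_iff_eq_mul.1 e⟩, fun e => mul_inv_eq_iff_eq_mul.2 e.2⟩
  have b : MulAction.orbit M z = {x | ∃ m ∈ M, m * z * m⁻¹ = x} :=
    Set.ext fun x => ⟨fun ⟨m, e⟩ => ⟨m, m.2, e⟩, fun ⟨m, i, e⟩ => ⟨⟨m, i⟩, e⟩⟩
  rw [← b, ← MulAction.index_stabilizer, a, ← Nat.card_congr (subgroupOfEquivOfLe (inf_le_left (a := M) (b := centralizer {z}))).toEquiv,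
    card_mul_index]

theorem half {G : Type u} [Group G] (H K : Subgroup G) {a : G} (aK : a ∈ K) (aH : a ∉ H)
    (h : ∀ b ∈ K, b ∉ H → b * a ∈ H) : Nat.card ↥(H ⊓ K) * 2 = Nat.card K := by
  have i : H.relIndex K = 2 := relIndex_eq_two_iff.2 ⟨a, aK, fun b bK => by
    by_cases e : b ∈ H
    · exact .inr ⟨e, fun k => aH ((H.mul_mem_cancel_left e).1 k)⟩
    · exact .inl ⟨h b bK e, e⟩⟩
  rw [← i, ← (H.subgroupOf K).card_mul_index, ← Nat.card_congr (subgroupOfEquivOfLe (inf_le_right (a := H) (b := K))).toEquiv,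
    inf_subgroupOf_right]
  rfl

theorem pa {G : Type u} [Group G] [Finite G] {z : G} {Q : Subgroup G}
    {V : Type u} [AddCommGroup V] [Module (ZMod 2) V] [Finite V] {Γ : Type u} [Group Γ] [Finite Γ]
    {f : C_[z] →* Γ} {π : G → Γ} {ν : G → V} {T : Γ → V →+ V} {d : Γ} {M : Subgroup Γ} {β : V →+ V →+ ZMod 2}
    {q : V → ZMod 2} (s : Bj z Q f π ν T d M β q) {K Y : Subgroup Γ} {B : AddSubgroup V} {A : Subgroup G} {δ : G}
    (hx : Hx d K Y) (pj : Pj T d K Y q B) (pi : Pi T Y B) (Az : A ≤ C_[z]) (A2 : ∀ x ∈ A, x * x = 1)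
    (AY : ∀ x ∈ A, π x ∈ Y) (mA : ∀ x ∈ C_[z], π x ∈ Y → x ∈ C_(s.md.pull B) → x ∈ A) (e3 : A ⊓ Q = s.md.pull B)
    (YA : ∀ y ∈ Y, ∃ c ∈ A, c ∈ C_[δ] ∧ π c = y)
    (cz : ∀ c ∈ C_[z], c ∈ C_[δ] → ∀ r ∈ Q, T (π c) (ν r) = ν r → c * r * c⁻¹ = r)
    {t : G} (tz : t ∈ C_[z]) (tt : t * t = 1) (tY : π t ∈ Y) (tQ : t ∉ Q) (tA : t ∉ A) :
    Nat.card ↥(A ⊓ C_[t]) = 128 ∧ Nat.card ↥(s.md.pull B ⊓ C_[t]) = 64 ∧
    (∀ a ∈ A ⊓ C_[t], a ∉ s.md.pull B → t * a ∈ Q) ∧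
    ∃ c ∈ A, c ∈ C_[δ] ∧ c ∉ s.md.pull B ∧ ∀ c' : G, c' = c ∨ c' = c * z →
      16 ≤ {x | t * x = x * t ∧ ∃ r ∈ Q, x = r * c' * r⁻¹}.ncard := by
  have m := s.md
  have pm : ∀ x ∈ C_[z], ∀ y ∈ C_[z], π (x * y) = π x * π y := fun x i y j =>
    (s.pf ⟨x * y, mul_mem i j⟩).symm.trans ((map_mul f ⟨x, i⟩ ⟨y, j⟩).trans (by rw [s.pf, s.pf]))
  have zQ : z ∈ Q := m.lx.aes.mem
  have Qz : Q ≤ C_[z] := le_cent1_iff.2 m.lx.aes.cent
  have nQ : ∀ a ∈ C_[z], ∀ k ∈ Q, a * k * a⁻¹ ∈ Q := le_norm_iff.1 m.lx.norm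
  have ab : ∀ x ∈ A, ∀ y ∈ A, Commute x y := fun x i y j => by
    show x * y = y * x
    rw [← inv_eq_of_mul_eq_one_right (A2 _ (mul_mem i j)), mul_inv_rev, inv_eq_of_mul_eq_one_right (A2 _ i),
      inv_eq_of_mul_eq_one_right (A2 _ j)]
  have BA : s.md.pull B ≤ A := e3 ▸ inf_le_left
  have mb : ∀ x ∈ A, x ∈ Q → x ∈ s.md.pull B := fun x i j => e3 ▸ ⟨i, j⟩
  have bi : ∀ g u v, β (T g u) (T g v) = β u v := fun g u v => by
    have := s.gm.qT g (u + v)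
    rw [map_add, s.gm.pol, s.gm.pol, s.gm.qT, s.gm.qT] at this
    exact add_left_cancel this
  have y1 : π t ≠ 1 := fun e => tQ ((s.ker t tz).1 e)
  obtain ⟨c, cA, cδ, cy⟩ := YA _ tY
  have cc := A2 c cA
  have ci : c⁻¹ = c := inv_eq_of_mul_eq_one_right cc
  obtain ⟨r, rt⟩ : ∃ r, r = t * c := ⟨_, rfl⟩
  have tr : t = r * c := by rw [rt, mul_assoc, cc, mul_one]
  have rQ : r ∈ Q := rt ▸ (s.ker _ (mul_mem tz (Az cA))).1 (by rw [pm _ tz _ (Az cA), cy, hx.Y2 _ tY])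
  have fr : T (π c) (ν r) = ν r := by
    rw [s.act c (Az cA) r rQ, ← m.inv rQ]
    congr 1
    rw [eq_inv_iff_mul_eq_one, ci, rt, mul_assoc (c * (t * c)), ← mul_assoc c t c, mul_assoc (c * t), ← mul_assoc c,
      ← mul_assoc c c, cc, one_mul, ← mul_assoc, mul_assoc c, tt, mul_one, cc]
  have cr : Commute c r := mul_inv_eq_iff_eq_mul.1 (cz c (Az cA) cδ r rQ fr)
  have rB : ν r ∉ B := fun e => tA (tr ▸ mul_mem (BA ⟨rQ, e⟩) cA)
  have ct : ∀ a ∈ A, a ∈ C_[t] ↔ Commute a r := fun a i => by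
    rw [mem_centralizer_singleton_iff]
    refine ⟨fun e => rt ▸ Commute.mul_right e (ab a i c cA), fun e => tr ▸ Commute.mul_right e (ab a i c cA)⟩
  have cB : c ∉ s.md.pull B := fun e => y1 (cy ▸ (s.ker c (Az cA)).2 e.1)
  have hd : ∀ a ∈ A ⊓ C_[t], a ∉ s.md.pull B → π a = π t := fun a i n => by
    by_contra e
    refine rB (pi.two _ (AY a i.1) _ tY (fun k => n (mb a i.1 ((s.ker a (Az i.1)).1 k))) y1 e _ ?_ (cy ▸ fr))
    rw [s.act a (Az i.1) r rQ, ((ct a i.1).1 i.2).eq, mul_inv_cancel_right]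
  have hb : Nat.card ↥(s.md.pull B ⊓ C_[t]) = 64 := by
    obtain ⟨a, aB, at'⟩ : ∃ a ∈ s.md.pull B, a ∉ C_[t] := by
      by_contra n
      push Not at n
      exact tA (mA t tz tY (mem_centralizer_iff.2 fun a i => mem_centralizer_singleton_iff.1 (n a i)))
    have k : ∀ x y : ZMod 2, x ≠ 0 → y ≠ 0 → x + y = 0 := by decide
    have := half C_[t] (s.md.pull B) aB at' fun b bB n => (ct _ (BA (mul_mem bB aB))).2
      ((s.b _ (mul_mem bB.1 aB.1) r rQ).1 (by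
        rw [m.mul _ bB.1 _ aB.1, map_add, AddMonoidHom.add_apply]
        exact k _ _ (fun e => n ((ct _ (BA bB)).2 ((s.b _ bB.1 r rQ).1 e)))
          fun e => at' ((ct _ (BA aB)).2 ((s.b _ aB.1 r rQ).1 e))))
    rw [s.md.card_pull, pj.cB, inf_comm] at this
    omega
  refine ⟨?_, hb, fun a i n => (s.ker _ (mul_mem tz (Az i.1))).1 (by rw [pm _ tz _ (Az i.1), hd a i n, hx.Y2 _ tY]),
    c, cA, cδ, cB, fun c' hc => ?_⟩
  · have := half (s.md.pull B) (A ⊓ C_[t]) ⟨cA, (ct c cA).2 cr⟩ cB fun b i n => mb _ (mul_mem i.1 cA)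
      ((s.ker _ (Az (mul_mem i.1 cA))).1 (by rw [pm _ (Az i.1) _ (Az cA), hd b i n, cy, hx.Y2 _ tY]))
    rw [← inf_assoc, inf_eq_left.2 BA, hb] at this
    omega
  have zA : z ∈ A := BA ⟨zQ, m.zz ▸ zero_mem _⟩
  have c'A : c' ∈ A := by rcases hc with rfl | rfl; exacts [cA, mul_mem cA zA]
  have c'y : π c' = π c := by
    rcases hc with rfl | rfl
    · rfl
    · rw [pm _ (Az cA) _ (Az zA), (s.ker z (Az zA)).2 zQ, mul_one]
  have c'r : Commute c' r := by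
    rcases hc with rfl | rfl
    · exact cr
    · exact cr.mul_left (Commute.symm (mem_centralizer_singleton_iff.1 (Qz rQ)))
  have o := orb Q c'
  have l : Nat.card (m.push C_[c']) ≤ 256 := pi.c256 _ tY y1 _ (by
    rintro _ ⟨x, xQ, xc, rfl⟩
    rw [← cy, ← c'y, s.act c' (Az c'A) x xQ, ← mem_centralizer_singleton_iff.1 xc, mul_inv_cancel_right])
  rw [m.card_push (mem_centralizer_singleton_iff.2 (ab z zA c' c'A)), s.card] at o
  have sub : {x | ∃ m ∈ Q, m * c' * m⁻¹ = x} ⊆ {x | t * x = x * t ∧ ∃ r ∈ Q, x = r * c' * r⁻¹} := by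
    rintro _ ⟨x, xQ, rfl⟩
    refine ⟨?_, x, xQ, rfl⟩
    have wQ : c' * x⁻¹ * c'⁻¹ ∈ Q := nQ _ (Az c'A) _ (inv_mem xQ)
    have nw : ν (x * (c' * x⁻¹ * c'⁻¹)) = ν x + T (π t) (ν x) := by
      rw [m.mul _ xQ _ wQ, ← s.act c' (Az c'A) _ (inv_mem xQ), m.inv xQ, c'y, cy]
    have wA : x * (c' * x⁻¹ * c'⁻¹) ∈ A := BA ⟨mul_mem xQ wQ, nw ▸ pj.cm _ tY _⟩
    have wr : Commute (x * (c' * x⁻¹ * c'⁻¹)) r := (s.b _ (mul_mem xQ wQ) r rQ).1 (by
      rw [nw, map_add, AddMonoidHom.add_apply, ← cy]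
      nth_rw 2 [← fr]
      rw [bi]
      exact CharTwo.add_self_eq_zero _)
    rw [show x * c' * x⁻¹ = x * (c' * x⁻¹ * c'⁻¹) * c' by group]
    exact (mem_centralizer_singleton_iff.1 ((ct _ (mul_mem wA c'A)).2 (wr.mul_left c'r))).symm
  have := Set.ncard_le_ncard sub (Set.toFinite _)
  by_contra n
  nlinarith

end H05.YP
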